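import Mathlib
import Cfsg.Agent.H737.RootInv
import Cfsg.Agent.H737.RootSim
import Cfsg.Agent.H737.RootNormal

/-!
# Root involutions: the isolated vertices of `𝓕(C_D(d))`

`WSet D d` is the set `W_d` of the members of `D` commuting with `d` which are not opposite to any
member of `D` commuting with `d`.
-/

set_option autoImplicit false

namespace Cfsg.Agent.H737

open Cfsg
open scoped commutatorElement

variable {G : Type*} [Group G] {D : Set G}

/-- The isolated vertices of `𝓕(C_D(d))`. -/
def WSet (D : Set G) (d : G) : Set G :=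
  {w | w ∈ D ∧ Commute w d ∧ ∀ c ∈ D, Commute c d → ¬ Opp c w}

/-- Members of `D` commuting with a member commute with its whole opposition class. -/
theorem sim_comm_iff [Finite G] (h : IsRootInvolutionSet D) (hc : IsConnectedSet (OddAdj D) D)
    {a d y : G} (ha : a ∈ D) (hd : d ∈ D) (hs : SimR D a d) (hy : y ∈ D) :
    Commute y a ↔ Commute y d :=
  ⟨sim_centralize h hc hy ha hd hs, sim_centralize h hc hy hd ha hs.symm⟩

theorem WSet_conj (h : IsRootInvolutionSet D) {d w : G} (hw : w ∈ WSet D d) (g : G) :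
    g * w * g⁻¹ ∈ WSet D (g * d * g⁻¹) := by
  obtain ⟨h1, h2, h3⟩ := hw
  refine ⟨h.conj_mem w h1 g, ?_, ?_⟩
  · show g * w * g⁻¹ * (g * d * g⁻¹) = g * d * g⁻¹ * (g * w * g⁻¹)
    calc g * w * g⁻¹ * (g * d * g⁻¹) = g * (w * d) * g⁻¹ := by group
      _ = g * (d * w) * g⁻¹ := by rw [h2.eq]
      _ = _ := by group
  · intro c hc hcd ho
    have hcD : g⁻¹ * c * g ∈ D := by
      have := h.conj_mem c hc g⁻¹
      rwa [inv_inv] at this
    have e1 : c = g * (g⁻¹ * c * g) * g⁻¹ := by group
    refine h3 (g⁻¹ * c * g) hcD ?_ ?_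
    · show g⁻¹ * c * g * d = d * (g⁻¹ * c * g)
      calc g⁻¹ * c * g * d = g⁻¹ * (c * (g * d * g⁻¹)) * g := by group
        _ = g⁻¹ * ((g * d * g⁻¹) * c) * g := by rw [hcd.eq]
        _ = _ := by group
    · rw [← opp_conj g, ← e1]
      exact ho

theorem WSet_conj_comm (h : IsRootInvolutionSet D) {d w x : G} (hw : w ∈ WSet D d) (hx : x ∈ D)
    (hxd : Commute x d) : x * w * x ∈ WSet D d := by
  have h1 := WSet_conj h hw x
  rw [inv_of_mem h hx, hxd.eq, mul_assoc d, sq_of_mem h hx, mul_one] at h1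
  exact h1

theorem WSet_of_sim [Finite G] (h : IsRootInvolutionSet D) (hc : IsConnectedSet (OddAdj D) D)
    {a d w : G} (ha : a ∈ D) (hd : d ∈ D) (hs : SimR D a d) (hw : w ∈ WSet D d) :
    w ∈ WSet D a :=
  ⟨hw.1, (sim_comm_iff h hc ha hd hs hw.1).2 hw.2.1, fun c hcD hca =>
    hw.2.2 c hcD ((sim_comm_iff h hc ha hd hs hcD).1 hca)⟩

theorem WSet_not_opp {d x y : G} (hx : x ∈ WSet D d) (hy : y ∈ WSet D d) : ¬ Opp x y :=
  hy.2.2 x hx.1 hx.2.1

theorem WSet_order_four (h : IsRootInvolutionSet D) {d x y : G} (hx : x ∈ WSet D d)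
    (hy : y ∈ WSet D d) (hxy : ¬ Commute x y) : orderOf (x * y) = 4 :=
  (order_four_of h hx.1 hy.1 hxy (WSet_not_opp hx hy)).1

/-- For a pair with product of order 4 the two expressions for the commutator agree. -/
theorem comm_symm {x y : G} (hx : x * x = 1) (hy : y * y = 1) (h4 : orderOf (x * y) = 4) :
    x * (y * x * y) = y * (x * y * x) := by
  have h1 := (commute_of_order_four hx hy h4).eq
  rw [h1]; group

/-- The commutator of two members of `W_d` is trivial or a member of `W_d`. -/
theorem WSet_comm (h : IsRootInvolutionSet D) {d x y : G} (hx : x ∈ WSet D d)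
    (hy : y ∈ WSet D d) (hxy : ¬ Commute x y) : x * (y * x * y) ∈ WSet D d := by
  have hxx := sq_of_mem h hx.1
  have hyy := sq_of_mem h hy.1
  have h4 := WSet_order_four h hx hy hxy
  have h1 : y * x * y ∈ WSet D d := WSet_conj_comm h hx hy.1 hy.2.1
  have h2 : Commute x (y * x * y) := commute_of_order_four hxx hyy h4
  have hD : x * (y * x * y) ∈ D := mem_of_order_four h hx.1 hy.1 h4
  refine ⟨hD, hx.2.1.mul_left h1.2.1, ?_⟩
  intro c hc hcd ho
  have e1 : x * (x * (y * x * y)) = y * x * y := by rw [← mul_assoc, hxx, one_mul]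
  rcases opp_or_opp_of_line h hx.1 hD ((Commute.refl x).mul_right h2)
    (by rw [e1]; exact h1.1) hc ho with h3 | h3
  · exact hx.2.2 c hc hcd h3
  · rw [e1] at h3
    exact h1.2.2 c hc hcd h3

theorem WSet_isPGroup [Finite G] (h : IsRootInvolutionSet D) (d : G) :
    IsPGroup 2 (Subgroup.closure (WSet D d) : Subgroup G) := by
  refine two_group_of_normal_subset (fun x hx => sq_of_mem h hx.1) ?_ ?_
  · intro x hx y hy
    exact WSet_conj_comm h hy hx.1 hx.2.1
  · intro x hx y hy
    exact exists_two_pow_of_not_opp h hx.1 hy.1 (WSet_not_opp hx hy)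

theorem self_mem_WSet (h : IsRootInvolutionSet D) {d : G} (hd : d ∈ D) : d ∈ WSet D d :=
  ⟨hd, Commute.refl d, fun _ hcD hcd ho => Opp.ncomm h hcD hd ho hcd⟩

theorem partner_mem_WSet (h : IsRootInvolutionSet D) {d x : G} (hd : d ∈ D) (hx : x ∈ D)
    (hxd : Commute x d) (hxdD : x * d ∈ D) : x ∈ WSet D d :=
  ⟨hx, hxd, fun _ hcD hcd ho => not_commute_of_opp h hx hd hxd hxdD hcD ho hcd⟩

theorem sim_mem_WSet [Finite G] (h : IsRootInvolutionSet D) (hc : IsConnectedSet (OddAdj D) D)
    {d x : G} (hd : d ∈ D) (hx : x ∈ D) (hs : SimR D x d) : x ∈ WSet D d :=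
  ⟨hx, sim_commute h hc hx hd hs, fun _ hcD hcd ho =>
    Opp.ncomm h hcD hx ho ((sim_comm_iff h hc hx hd hs hcD).2 hcd)⟩

theorem WSet_commute_sim [Finite G] (h : IsRootInvolutionSet D)
    (hc : IsConnectedSet (OddAdj D) D) {d a w : G} (hd : d ∈ D) (ha : a ∈ D) (hs : SimR D a d)
    (hw : w ∈ WSet D d) : Commute w a :=
  (sim_comm_iff h hc ha hd hs hw.1).2 hw.2.1

/-- The members of `D` in `⟨W_d⟩` are those of `W_d`. -/
theorem mem_WSet_of_mem_closure [Finite G] (h : IsRootInvolutionSet D) {d y : G} (hyD : y ∈ D)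
    (hy : y ∈ Subgroup.closure (WSet D d)) : y ∈ WSet D d := by
  have hcent : ∀ z ∈ Subgroup.closure (WSet D d), Commute z d := by
    intro z hz
    induction hz using Subgroup.closure_induction with
    | mem x hx => exact hx.2.1
    | one => exact Commute.one_left d
    | mul a b _ _ iha ihb => exact iha.mul_left ihb
    | inv a _ iha => exact iha.inv_left
  refine ⟨hyD, hcent y hy, ?_⟩
  intro c hc hcd ho
  have hcc := sq_of_mem h hc
  have hyy := sq_of_mem h hyD
  -- `c` normalizes `⟨W_d⟩`
  have hn : c * y * c ∈ Subgroup.closure (WSet D d) := by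
    have : ∀ z ∈ Subgroup.closure (WSet D d), c * z * c ∈ Subgroup.closure (WSet D d) := by
      intro z hz
      induction hz using Subgroup.closure_induction with
      | mem x hx => exact Subgroup.subset_closure (WSet_conj_comm h hx hc hcd)
      | one => rw [mul_one, hcc]; exact one_mem _
      | mul a b _ _ iha ihb =>
        have e : c * (a * b) * c = (c * a * c) * (c * b * c) := by
          calc c * (a * b) * c = c * a * 1 * b * c := by group
            _ = c * a * (c * c) * b * c := by rw [hcc]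
            _ = _ := by group
        rw [e]; exact mul_mem iha ihb
      | inv a _ iha =>
        have e : c * a⁻¹ * c = (c * a * c)⁻¹ := by
          rw [mul_inv_rev, mul_inv_rev, inv_of_sq hcc, mul_assoc]
        rw [e]; exact inv_mem iha
    exact this y hy
  have h1 : (c * y) ^ 2 ∈ Subgroup.closure (WSet D d) := by
    have : (c * y) ^ 2 = (c * y * c) * y := by rw [pow_two]; group
    rw [this]; exact mul_mem hn hy
  have h3 := eq_one_of_odd_of_mem (WSet_isPGroup h d) ho.2 h1
  apply ho.1
  calc c = (c * y) * y := by rw [mul_assoc, hyy, mul_one]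
    _ = y := by rw [h3, one_mul]

/-- In a nilpotent group generated by `Δ` a nonempty subset `S` of `Δ` not containing `1` has a
member whose commutators with the members of `Δ` are not in `S`. -/
theorem exists_deepest {Δ S : Set G} (hSΔ : S ⊆ Δ) (hne : S.Nonempty) (h1 : (1 : G) ∉ S)
    (hnil : Group.IsNilpotent (Subgroup.closure Δ : Subgroup G)) :
    ∃ z ∈ S, ∀ x ∈ Δ, ⁅z, x⁆ ∉ S := by
  classical
  set Q : Subgroup G := Subgroup.closure Δ with hQ
  obtain ⟨n, hn⟩ := Q.isNilpotent_iff_lowerCentralSeries.1 hnil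
  have hex : ∃ k, ∀ z ∈ S, z ∉ Q.lowerCentralSeries k := by
    refine ⟨n, fun z hz hz' => ?_⟩
    rw [hn, Subgroup.mem_bot] at hz'
    exact h1 (hz' ▸ hz)
  have hk := Nat.find_spec hex
  have hk0 : Nat.find hex ≠ 0 := by
    intro h0
    rw [h0] at hk
    obtain ⟨z, hz⟩ := hne
    exact hk z hz (Subgroup.subset_closure (hSΔ hz))
  obtain ⟨k, hk'⟩ := Nat.exists_eq_succ_of_ne_zero hk0
  have hmin := Nat.find_min hex (m := k) (by omega)
  push Not at hmin
  obtain ⟨z, hz, hzk⟩ := hmin
  refine ⟨z, hz, fun x hx hzx => ?_⟩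
  have h2 : ⁅z, x⁆ ∈ Q.lowerCentralSeries (k + 1) := by
    rw [Subgroup.lowerCentralSeries_succ]
    exact Subgroup.commutator_mem_commutator hzk (Subgroup.subset_closure hx)
  rw [hk'] at hk
  exact hk _ hzx h2

/-- The commutators of the class of `d` with a member `e` with `de` of order 4, when `e` is
opposite to a member `v` of `W_d`. -/
theorem comm_class [Finite G] (h : IsRootInvolutionSet D) (hc : IsConnectedSet (OddAdj D) D)
    {d v e : G} (hd : d ∈ D) (hv : v ∈ WSet D d) (he : e ∈ D) (hev : Opp e v)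
    (hed : ¬ Opp e d) {a : G} (ha : a ∈ D) (hs : SimR D a d) :
    orderOf (a * e) = 4 ∧ a * (e * a * e) ∈ D ∧ Commute a (e * a * e) ∧
      a * (e * a * e) ∈ WSet D d ∧ Commute (a * (e * a * e)) e ∧
      ∀ v' ∈ D, Opp e v' → ¬ Commute (a * (e * a * e)) v' := by
  have haa := sq_of_mem h ha
  have hee := sq_of_mem h he
  have h1 : ¬ Commute e d := fun hh => hv.2.2 e he hh hev
  have h2 : ¬ Commute a e := fun hh => h1 ((sim_comm_iff h hc ha hd hs he).1 hh.symm)
  have h3 : ¬ Opp a e := fun hh => hed ((hs e he).1 (Opp.symm' h ha he hh))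
  have h4 := (order_four_of h ha he h2 h3).1
  have hD := mem_of_order_four h ha he h4
  have h5 := commute_of_order_four haa hee h4
  have h6 : Commute (a * (e * a * e)) e := by
    show a * (e * a * e) * e = e * (a * (e * a * e))
    calc a * (e * a * e) * e = a * (e * a) * (e * e) := by group
      _ = a * (e * a) := by rw [hee, mul_one]
      _ = (e * e) * (a * (e * a)) := by rw [hee, one_mul]
      _ = e * ((e * a * e) * a) := by group
      _ = e * (a * (e * a * e)) := by rw [h5.eq]
  have e1 : a * (e * a * e) * a = e * a * e := by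
    rw [h5.eq, mul_assoc, haa, mul_one]
  have h7 : a * (e * a * e) ∈ WSet D a := by
    refine partner_mem_WSet h ha hD ?_ ?_
    · exact ((Commute.refl a).mul_left h5.symm)
    · rw [e1]; exact conj_mem' h ha he
  have e2 : e * (a * (e * a * e)) = a * e * a := by
    rw [← h6.eq]
    calc a * (e * a * e) * e = a * e * a * (e * e) := by group
      _ = a * e * a := by rw [hee, mul_one]
  refine ⟨h4, hD, h5, WSet_of_sim h hc hd ha hs.symm h7, h6, ?_⟩
  intro v' hv' hev' hcom
  exact not_commute_of_opp h he hD h6.symm (by rw [e2]; exact conj_mem' h he ha) hv'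
    (Opp.symm' h he hv' hev') hcom.symm

end Cfsg.Agent.H737
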