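import Mathlib
import Cfsg.Agent.H736.Lines

/-!
# Root involutions without planes: basic facts

Setting `R2 D`: non-degenerate connected class `D` of root involutions (`ND D`), such that two
different commuting members of `D` always have their product in `D`, and three pairwise commuting
members always lie on one line.  `MG D d` is the group generated by the members commuting with `d`.
-/

set_option autoImplicit false

namespace Cfsg.Agent.H737.Far

open Cfsg Cfsg.Agent.H737 Cfsg.Agent.H736.Hole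

variable {G : Type*} [Group G] {D : Set G}

/-- The group generated by the members of `D` commuting with `d`. -/
def MG (D : Set G) (d : G) : Subgroup G := Subgroup.closure {w | w ∈ D ∧ Commute w d}

/-- `x` is near `f`. -/
def Near (D : Set G) (f x : G) : Prop := Opp f x ∧ ∃ y ∈ D, Commute y f ∧ ¬ Opp y x

/-- The setting: no planes. -/
structure R2 (D : Set G) : Prop where
  N : ND D
  four : ∀ c ∈ D, ∀ z ∈ D, Commute z c → z ≠ c → z * c ∈ D
  line : ∀ a ∈ D, ∀ b ∈ D, ∀ c ∈ D, Commute b a → ¬ SimR D b a → Commute c a → Commute c b →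
    c ∈ LS D a b
  central : ∀ d ∈ D, ∀ x ∈ D, Opp x d → ∀ g : G, (∀ k ∈ MG D d, Commute g k) → Commute g x → g = 1
  q : ∀ d ∈ D, 2 < Nat.card (EG D d)
  psl : ∀ f ∈ D, ∀ x ∈ D, Near D f x → ∃ (F' : Type) (_ : Field F') (_ : Fintype F'), CharP F' 2 ∧
    Fintype.card F' = Nat.card (EG D f) ∧
      Nonempty (↥(EG D f ⊔ EG D x) ≃* Matrix.ProjectiveSpecialLinearGroup (Fin 2) F')

theorem mem_MG {d w : G} (hw : w ∈ D) (h : Commute w d) : w ∈ MG D d :=
  Subgroup.subset_closure ⟨hw, h⟩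

/-! ### Elementary identities -/

theorem conj_commute_iff {g a b : G} : Commute (g * a * g⁻¹) (g * b * g⁻¹) ↔ Commute a b :=
  commute_conj_iff' g a b

theorem comm_of_conj_eq {g a : G} (h : g * a * g⁻¹ = a) : Commute g a := by
  show g * a = a * g
  calc g * a = (g * a * g⁻¹) * g := by group
    _ = a * g := by rw [h]

theorem conj_eq_of_comm {g a : G} (h : Commute g a) : g * a * g⁻¹ = a := by
  rw [h.eq, mul_assoc, mul_inv_cancel, mul_one]

namespace R2

variable [Finite G]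

section basics

variable (R : R2 D)
include R

theorem h : IsRootInvolutionSet D := R.N.h
theorem hc : IsConnectedSet (OddAdj D) D := R.N.hc

theorem sq {a : G} (ha : a ∈ D) : a * a = 1 := sq_of_mem R.h ha
theorem inv {a : G} (ha : a ∈ D) : a⁻¹ = a := inv_of_mem R.h ha
theorem ne_one {a : G} (ha : a ∈ D) : a ≠ 1 := ne_one_of_mem R.h ha

theorem W {c z : G} (hc : c ∈ D) (hz : z ∈ D) (h : Commute z c) : z ∈ WSet D c := by
  refine (R.N.W_iff hc).2 ⟨hz, h, ?_⟩
  by_cases hzc : z = c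
  · exact Or.inl hzc
  · exact Or.inr (R.four c hc z hz h hzc)

theorem self_mem {d : G} (hd : d ∈ D) : d ∈ EG D d := R.N.self_mem hd

theorem mem_D {d x : G} (hd : d ∈ D) (hx : x ∈ EG D d) (hx1 : x ≠ 1) : x ∈ D :=
  R.N.mem_D hd hx hx1

theorem sim {d x : G} (hd : d ∈ D) (hx : x ∈ EG D d) (hx1 : x ≠ 1) : SimR D x d :=
  (R.N.mem_EC hd hx hx1).2

theorem mem_of_sim {d x : G} (hx : x ∈ D) (hs : SimR D x d) : x ∈ EG D d :=
  Subgroup.subset_closure ⟨hx, hs⟩

theorem EG_eq {d x : G} (hd : d ∈ D) (hx : x ∈ EG D d) (hx1 : x ≠ 1) : EG D x = EG D d :=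
  R.N.EG_eq hd hx hx1

theorem EG_sq {d s : G} (hd : d ∈ D) (hs : s ∈ EG D d) : s * s = 1 :=
  Cfsg.Agent.H736.Hole.EG_sq R.h R.hc hd hs

theorem EG_inv {d s : G} (hd : d ∈ D) (hs : s ∈ EG D d) : s⁻¹ = s :=
  inv_of_sq (R.EG_sq hd hs)

theorem EG_comm {d s t : G} (hd : d ∈ D) (hs : s ∈ EG D d) (ht : t ∈ EG D d) : Commute s t :=
  Cfsg.Agent.H736.Hole.EG_comm R.h R.hc hd hs ht

theorem EG_conj {d s : G} (hs : s ∈ EG D d) (g : G) : g * s * g⁻¹ ∈ EG D (g * d * g⁻¹) :=
  Cfsg.Agent.H736.Hole.EG_conj R.h hs g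

theorem comm_EG {d w s : G} (hd : d ∈ D) (hw : w ∈ D) (hwd : Commute w d) (hs : s ∈ EG D d) :
    Commute w s := Cfsg.Agent.H736.Hole.comm_EG R.h R.hc hd hw hwd hs

/-- Commuting with a nontrivial member of a class. -/
theorem comm_of {d w s : G} (hd : d ∈ D) (hw : w ∈ D) (hs : s ∈ EG D d) (hs1 : s ≠ 1)
    (hws : Commute w s) : Commute w d := by
  refine R.comm_EG (R.mem_D hd hs hs1) hw hws ?_
  rw [R.EG_eq hd hs hs1]; exact R.self_mem hd

theorem opp_iff {d x s : G} (hd : d ∈ D) (hx : x ∈ D) (hs : s ∈ EG D d) (hs1 : s ≠ 1) :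
    Opp x s ↔ Opp x d := R.sim hd hs hs1 x hx

theorem opp_symm {a b : G} (ha : a ∈ D) (hb : b ∈ D) (h : Opp a b) : Opp b a :=
  Opp.symm' R.h ha hb h

theorem opp_iff' {d x s : G} (hd : d ∈ D) (hx : x ∈ D) (hs : s ∈ EG D d) (hs1 : s ≠ 1) :
    Opp s x ↔ Opp d x := by
  constructor
  · intro h1
    exact R.opp_symm hx hd ((R.opp_iff hd hx hs hs1).1 (R.opp_symm (R.mem_D hd hs hs1) hx h1))
  · intro h1
    exact R.opp_symm hx (R.mem_D hd hs hs1) ((R.opp_iff hd hx hs hs1).2 (R.opp_symm hd hx h1))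

theorem opp_ncomm {a b : G} (ha : a ∈ D) (hb : b ∈ D) (h : Opp a b) : ¬ Commute a b :=
  Opp.ncomm R.h ha hb h

theorem MG_comm {d g s : G} (hd : d ∈ D) (hg : g ∈ MG D d) (hs : s ∈ EG D d) : Commute g s := by
  unfold MG at hg
  induction hg using Subgroup.closure_induction with
  | mem w hw => exact R.comm_EG hd hw.1 hw.2 hs
  | one => exact Commute.one_left s
  | mul a b _ _ ha hb => exact ha.mul_left hb
  | inv a _ ha => exact ha.inv_left

theorem EG_le_MG {d : G} (hd : d ∈ D) : EG D d ≤ MG D d := by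
  intro s hs
  by_cases hs1 : s = 1
  · rw [hs1]; exact one_mem _
  · exact mem_MG (R.mem_D hd hs hs1) (R.EG_comm hd hs (R.self_mem hd))

theorem comm_WW {d w y : G} (hd : d ∈ D) (hw : w ∈ D) (hwd : Commute w d) (hy : y ∈ D)
    (hyd : Commute y d) : w * y * w⁻¹ * y⁻¹ ∈ EG D d := by
  have h1 := R.N.comm_mem hd (R.W hd hw hwd) (R.W hd hy hyd)
  have e : w * y * w⁻¹ * y⁻¹ = cm y w := by
    rw [R.inv hw, R.inv hy]; unfold cm; group
  rw [e]; exact h1

/-- `[M_d, M_d] ≤ E(d)`. -/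
theorem comm_MG {d g k : G} (hd : d ∈ D) (hg : g ∈ MG D d) (hk : k ∈ MG D d) :
    g * k * g⁻¹ * k⁻¹ ∈ EG D d := by
  -- first for a generator `w` and `k ∈ M`
  have key : ∀ w ∈ D, Commute w d → ∀ k ∈ MG D d, w * k * w⁻¹ * k⁻¹ ∈ EG D d := by
    intro w hw hwd k hk
    unfold MG at hk
    induction hk using Subgroup.closure_induction with
    | mem y hy => exact R.comm_WW hd hw hwd hy.1 hy.2
    | one => simp
    | mul a b ha hb iha ihb =>
      have hac : Commute a (w * b * w⁻¹ * b⁻¹) := R.MG_comm hd ha ihb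
      have e : w * (a * b) * w⁻¹ * (a * b)⁻¹ =
          (w * a * w⁻¹ * a⁻¹) * (w * b * w⁻¹ * b⁻¹) := by
        calc w * (a * b) * w⁻¹ * (a * b)⁻¹ = w * a * w⁻¹ * a⁻¹ * (a * (w * b * w⁻¹ * b⁻¹)) * a⁻¹ := by
              group
          _ = w * a * w⁻¹ * a⁻¹ * ((w * b * w⁻¹ * b⁻¹) * a) * a⁻¹ := by rw [hac.eq]
          _ = _ := by group
      rw [e]; exact mul_mem iha ihb
    | inv a ha iha =>
      have hac : Commute a (w * a * w⁻¹ * a⁻¹) := R.MG_comm hd ha iha
      have e : w * a⁻¹ * w⁻¹ * a⁻¹⁻¹ = (w * a * w⁻¹ * a⁻¹)⁻¹ := by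
        calc w * a⁻¹ * w⁻¹ * a⁻¹⁻¹ = a⁻¹ * (w * a * w⁻¹ * a⁻¹)⁻¹ * a := by group
          _ = a⁻¹ * (a * (w * a * w⁻¹ * a⁻¹)⁻¹) := by rw [mul_assoc, ← hac.inv_right.eq]
          _ = _ := by group
      rw [e]; exact inv_mem iha
  unfold MG at hg
  induction hg using Subgroup.closure_induction with
  | mem w hw => exact key w hw.1 hw.2 k hk
  | one => simp
  | mul a b ha hb iha ihb =>
    have hac : Commute a (b * k * b⁻¹ * k⁻¹) := R.MG_comm hd ha ihb
    have e : a * b * k * (a * b)⁻¹ * k⁻¹ = (b * k * b⁻¹ * k⁻¹) * (a * k * a⁻¹ * k⁻¹) := by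
      calc a * b * k * (a * b)⁻¹ * k⁻¹ = a * (b * k * b⁻¹ * k⁻¹) * (k * a⁻¹ * k⁻¹) := by group
        _ = (b * k * b⁻¹ * k⁻¹) * a * (k * a⁻¹ * k⁻¹) := by rw [hac.eq]
        _ = _ := by group
    rw [e]; exact mul_mem ihb iha
  | inv a ha iha =>
    have hac : Commute a (a * k * a⁻¹ * k⁻¹) := R.MG_comm hd ha iha
    have e : a⁻¹ * k * a⁻¹⁻¹ * k⁻¹ = (a * k * a⁻¹ * k⁻¹)⁻¹ := by
      calc a⁻¹ * k * a⁻¹⁻¹ * k⁻¹ = a⁻¹ * (a * k * a⁻¹ * k⁻¹)⁻¹ * a := by group
        _ = a⁻¹ * (a * (a * k * a⁻¹ * k⁻¹)⁻¹) := by rw [mul_assoc, ← hac.inv_right.eq]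
        _ = _ := by group
    rw [e]; exact inv_mem iha

/-- conjugation inside `M_d`. -/
theorem MG_conj_eq {d g u : G} (hd : d ∈ D) (hg : g ∈ MG D d) (hu : u ∈ MG D d) :
    ∃ e ∈ EG D d, g * u * g⁻¹ = u * e := by
  have h1 := R.comm_MG hd (inv_mem hu) hg
  refine ⟨_, h1, ?_⟩
  group

theorem MG_sq {d g : G} (hd : d ∈ D) (hg : g ∈ MG D d) : g * g ∈ EG D d := by
  unfold MG at hg
  induction hg using Subgroup.closure_induction with
  | mem w hw => rw [R.sq hw.1]; exact one_mem _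
  | one => rw [one_mul]; exact one_mem _
  | mul a b ha hb iha ihb =>
    have h1 := R.comm_MG hd ha hb
    have h2 : Commute b (a * b * a⁻¹ * b⁻¹) := R.MG_comm hd hb h1
    have h3 : Commute b (b * b) := R.MG_comm hd hb ihb
    have e : a * b * (a * b) = (a * b * a⁻¹ * b⁻¹)⁻¹ * (a * a) * (b * b) := by
      have h4 : b⁻¹ * (a * b * a⁻¹ * b⁻¹)⁻¹ = (a * b * a⁻¹ * b⁻¹)⁻¹ * b⁻¹ :=
        (h2.inv_right.inv_left).eq
      have h5 : Commute a (a * b * a⁻¹ * b⁻¹)⁻¹ := (R.MG_comm hd ha h1).inv_right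
      calc a * b * (a * b) = a * (b * a * b⁻¹ * a⁻¹) * a * b * b := by group
        _ = a * (a * b * a⁻¹ * b⁻¹)⁻¹ * a * b * b := by group
        _ = (a * b * a⁻¹ * b⁻¹)⁻¹ * a * a * b * b := by rw [h5.eq]
        _ = _ := by group
    rw [e]; exact mul_mem (mul_mem (inv_mem h1) iha) ihb
  | inv a ha iha =>
    have e : a⁻¹ * a⁻¹ = (a * a)⁻¹ := by group
    rw [e]; exact inv_mem iha

theorem MG_conj {d g : G} (hg : g ∈ MG D d) (k : G) : k * g * k⁻¹ ∈ MG D (k * d * k⁻¹) := by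
  unfold MG at hg
  induction hg using Subgroup.closure_induction with
  | mem w hw => exact mem_MG (R.h.conj_mem w hw.1 k) (conj_commute_iff.2 hw.2)
  | one => simp
  | mul a b _ _ iha ihb =>
    have e : k * (a * b) * k⁻¹ = (k * a * k⁻¹) * (k * b * k⁻¹) := by group
    rw [e]; exact mul_mem iha ihb
  | inv a _ iha =>
    have e : k * a⁻¹ * k⁻¹ = (k * a * k⁻¹)⁻¹ := by group
    rw [e]; exact inv_mem iha

theorem MG_eq {d e : G} (hd : d ∈ D) (he : e ∈ EG D d) (he1 : e ≠ 1) : MG D e = MG D d := by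
  unfold MG
  congr 1
  ext w
  constructor
  · rintro ⟨h1, h2⟩
    exact ⟨h1, R.comm_of hd h1 he he1 h2⟩
  · rintro ⟨h1, h2⟩
    exact ⟨h1, R.comm_EG hd h1 h2 he⟩

theorem MG_eq_of_sim {d e : G} (hd : d ∈ D) (he : e ∈ D) (hs : SimR D e d) : MG D e = MG D d :=
  R.MG_eq hd (R.mem_of_sim he hs) (R.ne_one he)

/-- Different points have trivial intersection. -/
theorem EG_inter {a b x : G} (ha : a ∈ D) (hb : b ∈ D) (hs : ¬ SimR D a b) (hxa : x ∈ EG D a)
    (hxb : x ∈ EG D b) : x = 1 := by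
  by_contra hne
  exact hs ((R.sim ha hxa hne).symm.trans (R.sim hb hxb hne))

/-- An element of `M_a` centralizing one member of a class centralizes the class. -/
theorem comm_class {a b g s : G} (ha : a ∈ D) (hb : b ∈ D) (hba : Commute b a)
    (hns : ¬ SimR D b a) (hg : g ∈ MG D a) (hgb : Commute g b) (hs : s ∈ EG D b) :
    Commute g s := by
  by_cases hs1 : s = 1
  · rw [hs1]; exact Commute.one_right g
  have hsD := R.mem_D hb hs hs1
  have hsa : Commute s a := (R.comm_EG hb ha hba.symm hs).symm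
  obtain ⟨e, he, h1⟩ := R.MG_conj_eq ha hg (mem_MG hsD hsa)
  have h2 : g * s * g⁻¹ ∈ EG D b := by
    have h3 := R.EG_conj hs g
    rwa [conj_eq_of_comm hgb] at h3
  have h4 : e ∈ EG D b := by
    have : e = s⁻¹ * (g * s * g⁻¹) := by rw [h1]; group
    rw [this]; exact mul_mem (inv_mem hs) h2
  have h5 := R.EG_inter hb ha hns h4 he
  rw [h5, mul_one] at h1
  exact comm_of_conj_eq h1

/-- A path `f – y – p – x` with `f, p` and `y, x` not commuting has opposite ends. -/
theorem path_opp {f y p x : G} (hf : f ∈ D) (hy : y ∈ D) (hp : p ∈ D) (hx : x ∈ D)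
    (hfy : Commute f y) (hyp : Commute y p) (hpx : Commute p x) (hfp : ¬ Commute f p)
    (hyx : ¬ Commute y x) : Opp f x := by
  have hff := R.sq hf
  have hxx := R.sq hx
  have hpp := R.sq hp
  have hfM : f ∈ MG D y := mem_MG hf hfy
  have hpM : p ∈ MG D y := mem_MG hp hyp.symm
  obtain ⟨e, he, hfpf⟩ := R.MG_conj_eq hy hfM hpM
  have he1 : e ≠ 1 := by
    rintro rfl
    rw [mul_one] at hfpf
    exact hfp (comm_of_conj_eq hfpf)
  have hxy : ¬ SimR D x y := fun hs => hyx (R.comm_EG hy hy (Commute.refl y) (R.mem_of_sim hx hs))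
  by_contra ho
  by_cases hfx : Commute f x
  · have h1 : f * p * f⁻¹ * p⁻¹ ∈ EG D x :=
      R.comm_MG hx (mem_MG hf hfx) (mem_MG hp hpx)
    have h2 : f * p * f⁻¹ * p⁻¹ ∈ EG D y := R.comm_MG hy hfM hpM
    have h3 := R.EG_inter hx hy hxy h1 h2
    apply hfp
    show f * p = p * f
    calc f * p = (f * p * f⁻¹ * p⁻¹) * (p * f) := by group
      _ = p * f := by rw [h3, one_mul]
  · have h4 := (order_four_of R.h hf hx hfx ho).1
    have hu : f * (x * f * x) ∈ D := mem_of_order_four R.h hf hx h4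
    have hc4 := commute_of_order_four hff hxx h4
    set u : G := f * (x * f * x) with hudef
    have hux : Commute u x := by
      show f * (x * f * x) * x = x * (f * (x * f * x))
      calc f * (x * f * x) * x = f * (x * f) * (x * x) := by group
        _ = (x * x) * (f * (x * f)) := by rw [hxx, mul_one, one_mul]
        _ = x * (x * f * x) * f := by
          have e1 : (x * x) * (f * (x * f)) = x * ((x * f * x) * f) := by group
          rw [e1]; group
        _ = x * ((x * f * x) * f) := by group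
        _ = x * (f * (x * f * x)) := by rw [← hc4.eq]
    -- `x p₁ x p₁ ∈ E(p)`
    have heD := R.mem_D hy he he1
    have hep : Commute e p := (R.MG_comm hy hpM he).symm
    have hxe : ¬ Commute x e := fun hh => hyx (R.comm_of hy hx he he1 hh).symm
    obtain ⟨p'', hp'', hxex⟩ := R.MG_conj_eq hp (mem_MG hx hpx.symm) (mem_MG heD hep)
    have hp1 : p'' ≠ 1 := by
      rintro rfl
      rw [mul_one] at hxex
      exact hxe (comm_of_conj_eq hxex)
    have hp''e : Commute e p'' := R.comm_EG hp heD hep hp''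
    have hpp'' : Commute p p'' := R.comm_EG hp hp (Commute.refl p) hp''
    have h5 : x * (p * e) * x⁻¹ * (p * e)⁻¹ = p'' := by
      have h6 : x * (p * e) * x⁻¹ = p * (e * p'') := by
        calc x * (p * e) * x⁻¹ = (x * p * x⁻¹) * (x * e * x⁻¹) := by group
          _ = p * (e * p'') := by rw [hxex, conj_eq_of_comm hpx.symm]
      rw [h6]
      calc p * (e * p'') * (p * e)⁻¹ = p * (p'' * e) * (p * e)⁻¹ := by rw [hp''e.eq]
        _ = (p * p'') * p⁻¹ := by group
        _ = p'' := by rw [hpp''.eq]; group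
    have h7 : f * p'' * f⁻¹ ∈ EG D (p * e) := by
      have h8 := R.EG_conj hp'' f
      rwa [hfpf] at h8
    have hpe : p * e ∈ D := by rw [← hfpf]; exact R.h.conj_mem p hp f
    have hfpe : f * (p * e) * f⁻¹ = p := by
      rw [← hfpf]
      calc f * (f * p * f⁻¹) * f⁻¹ = (f * f) * p * (f * f)⁻¹ := by group
        _ = p := by rw [hff, one_mul, inv_one, mul_one]
    have h9 : f * p'' * f⁻¹ = u * p * u⁻¹ * p⁻¹ := by
      have e1 : f * x * f⁻¹ = u * x := by
        calc f * x * f⁻¹ = f * x * f := by rw [R.inv hf]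
          _ = f * (x * f * x) * x := by
            calc f * x * f = f * x * f * (x * x) := by rw [hxx, mul_one]
              _ = _ := by group
          _ = u * x := rfl
      rw [← h5]
      calc f * (x * (p * e) * x⁻¹ * (p * e)⁻¹) * f⁻¹
          = (f * x * f⁻¹) * (f * (p * e) * f⁻¹) * (f * x * f⁻¹)⁻¹ * (f * (p * e) * f⁻¹)⁻¹ := by
            group
        _ = (u * x) * p * (u * x)⁻¹ * p⁻¹ := by rw [e1, hfpe]
        _ = u * (x * p * x⁻¹) * u⁻¹ * p⁻¹ := by group
        _ = u * p * u⁻¹ * p⁻¹ := by rw [conj_eq_of_comm hpx.symm]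
    have h10 : f * p'' * f⁻¹ ∈ EG D x := by
      rw [h9]; exact R.comm_MG hx (mem_MG hu hux) (mem_MG hp hpx)
    have h11 : f * p'' * f⁻¹ ≠ 1 := by
      intro hh
      apply hp1
      calc p'' = f⁻¹ * (f * p'' * f⁻¹) * f := by group
        _ = 1 := by rw [hh]; group
    have h12 : SimR D x (p * e) := (R.sim hx h10 h11).symm.trans (R.sim hpe h7 h11)
    have h13 : Commute y (p * e) := hyp.mul_right (R.comm_EG hy hy (Commute.refl y) he)
    exact hyx (R.comm_EG hpe hy h13 (R.mem_of_sim hx h12))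

/-- The middle point of a pair with product of order 4. -/
theorem exists_mid {y x : G} (hy : y ∈ D) (hx : x ∈ D) (hyx : ¬ Commute y x) (ho : ¬ Opp y x) :
    ∃ p ∈ D, Commute p y ∧ Commute p x ∧ p = y * (x * y * x) := by
  have h4 := (order_four_of R.h hy hx hyx ho).1
  have hyy := R.sq hy
  have hxx := R.sq hx
  have hc4 := commute_of_order_four hyy hxx h4
  refine ⟨_, mem_of_order_four R.h hy hx h4, (Commute.refl y).mul_left hc4.symm, ?_, rfl⟩
  show y * (x * y * x) * x = x * (y * (x * y * x))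
  calc y * (x * y * x) * x = y * (x * y) * (x * x) := by group
    _ = (x * x) * (y * (x * y)) := by rw [hxx, mul_one, one_mul]
    _ = x * ((x * y * x) * y) := by group
    _ = x * (y * (x * y * x)) := by rw [← hc4.eq]

end basics

end R2

end Cfsg.Agent.H737.Far
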