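import Mathlib
import Cfsg.Agent.H737.FarBase

/-!
# Coordinates on a path of the rank 2 geometry of a class of root involutions
-/

set_option autoImplicit false

namespace Cfsg.Agent.H737.Far

open Cfsg Cfsg.Agent.H737 Cfsg.Agent.H736.Hole

variable {G : Type*} [Group G] {D : Set G} {F : Type} [Field F] [Fintype F]

/-- Coordinates on a path `f – y – p – x` (root groups `E(f)`, `E(y)`, `E(p)`, `E(x)`). -/
structure NC (D : Set G) (f y p x : F → G) : Prop where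
  two : ∀ s : F, s + s = 0
  q : ∃ t : F, t ≠ 0 ∧ t ≠ 1
  f_add : ∀ s t, f (s + t) = f s * f t
  y_add : ∀ s t, y (s + t) = y s * y t
  p_add : ∀ s t, p (s + t) = p s * p t
  x_add : ∀ s t, x (s + t) = x s * x t
  f_D : ∀ s, s ≠ 0 → f s ∈ D
  y_D : ∀ s, s ≠ 0 → y s ∈ D
  p_D : ∀ s, s ≠ 0 → p s ∈ D
  x_D : ∀ s, s ≠ 0 → x s ∈ D
  f_iff : ∀ g, g ∈ EG D (f 1) ↔ ∃ s, g = f s
  y_iff : ∀ g, g ∈ EG D (y 1) ↔ ∃ s, g = y s
  p_iff : ∀ g, g ∈ EG D (p 1) ↔ ∃ s, g = p s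
  x_iff : ∀ g, g ∈ EG D (x 1) ↔ ∃ s, g = x s
  fy : ∀ s t, Commute (f s) (y t)
  yp : ∀ s t, Commute (y s) (p t)
  px : ∀ s t, Commute (p s) (x t)
  fp : ∀ s t, f s * p t * f s = p t * y (s * t)
  xy : ∀ s t, x s * y t * x s = y t * p (s * t)
  fx : ∀ s, s ≠ 0 → f s * x s⁻¹ * f s = x s⁻¹ * f s * x s⁻¹
  opp : ∀ s t, s ≠ 0 → t ≠ 0 → Opp (f s) (x t)
  hh : ∀ s t, s ≠ 0 → t ≠ 0 → (f 1 * x 1⁻¹ * f 1) * (f (s * t) * x (s * t)⁻¹ * f (s * t)) =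
    ((f 1 * x 1⁻¹ * f 1) * (f s * x s⁻¹ * f s)) * ((f 1 * x 1⁻¹ * f 1) * (f t * x t⁻¹ * f t))

/-- The involutions `w(s)` exchanging the two ends. -/
def wN (f x : F → G) (s : F) : G := f s * x s⁻¹ * f s

/-- The torus: `h(s)` acts on `E(p)` as `s`, on `E(y)` as `s⁻¹`, on `E(x)` as `s²`, on `E(f)` as `s⁻²`. -/
def hN (f x : F → G) (s : F) : G := wN f x 1 * wN f x s

/-- `B = C_{M_y ∩ M_p}(⟨E(f), E(x)⟩)`. -/
def BG (D : Set G) (f y p x : F → G) : Subgroup G :=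
  (MG D (y 1) ⊓ MG D (p 1)) ⊓ Subgroup.centralizer (Set.range f ∪ Set.range x)

end Cfsg.Agent.H737.Far
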