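import Mathlib
import Cfsg.Agent.H737.FarDefs

/-!
# Computing with the coordinates of a path
-/

set_option autoImplicit false

namespace Cfsg.Agent.H737.Far

open Cfsg Cfsg.Agent.H737 Cfsg.Agent.H736.Hole

variable {G : Type*} [Group G] {D : Set G} {F : Type} [Field F] [Fintype F]

theorem cj_mul {a : G} (ha : a * a = 1) (u v : G) : a * (u * v) * a = (a * u * a) * (a * v * a) := by
  calc a * (u * v) * a = a * u * 1 * v * a := by group
    _ = a * u * (a * a) * v * a := by rw [ha]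
    _ = _ := by group

theorem cj_of_comm {a u : G} (ha : a * a = 1) (h : Commute a u) : a * u * a = u := by
  rw [h.eq, mul_assoc, ha, mul_one]

theorem cj_cj {a u : G} (ha : a * a = 1) : a * (a * u * a) * a = u := by
  calc a * (a * u * a) * a = (a * a) * u * (a * a) := by group
    _ = u := by rw [ha, one_mul, mul_one]

theorem cj_three (a b u : G) : (a * b * a) * u * (a * b * a) = a * (b * (a * u * a) * b) * a := by
  group

variable [Finite G]

/-- An element of `D` exchanging two opposite members is opposite to them. -/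
theorem R2.opp_of_swap (R : R2 D) {a b w : G} (ha : a ∈ D) (hb : b ∈ D) (hw : w ∈ D)
    (hab : Opp a b) (h : w * a * w = b) : Opp a w := by
  by_contra ho
  by_cases hc : Commute a w
  · have h1 : w * a * w = a := cj_of_comm (R.sq hw) hc.symm
    exact hab.1 (h1.symm.trans h)
  · have h4 := (order_four_of R.h ha hw hc ho).1
    have h5 := commute_of_order_four (R.sq ha) (R.sq hw) h4
    rw [h] at h5
    exact R.opp_ncomm ha hb hab h5

namespace NC

variable {f y p x : F → G}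

section zero

omit [Fintype F] [Finite G]

theorem f_zero (c : NC D f y p x) : f 0 = 1 := by
  have h := c.f_add 0 0
  rw [add_zero] at h
  exact (mul_eq_left.1 h.symm)

theorem y_zero (c : NC D f y p x) : y 0 = 1 := by
  have h := c.y_add 0 0
  rw [add_zero] at h
  exact (mul_eq_left.1 h.symm)

theorem p_zero (c : NC D f y p x) : p 0 = 1 := by
  have h := c.p_add 0 0
  rw [add_zero] at h
  exact (mul_eq_left.1 h.symm)

theorem x_zero (c : NC D f y p x) : x 0 = 1 := by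
  have h := c.x_add 0 0
  rw [add_zero] at h
  exact (mul_eq_left.1 h.symm)

theorem f_sq (c : NC D f y p x) (s : F) : f s * f s = 1 := by
  rw [← c.f_add, c.two, c.f_zero]

theorem y_sq (c : NC D f y p x) (s : F) : y s * y s = 1 := by
  rw [← c.y_add, c.two, c.y_zero]

theorem p_sq (c : NC D f y p x) (s : F) : p s * p s = 1 := by
  rw [← c.p_add, c.two, c.p_zero]

theorem x_sq (c : NC D f y p x) (s : F) : x s * x s = 1 := by
  rw [← c.x_add, c.two, c.x_zero]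

theorem f_inv (c : NC D f y p x) (s : F) : (f s)⁻¹ = f s := inv_of_sq (c.f_sq s)
theorem y_inv (c : NC D f y p x) (s : F) : (y s)⁻¹ = y s := inv_of_sq (c.y_sq s)
theorem p_inv (c : NC D f y p x) (s : F) : (p s)⁻¹ = p s := inv_of_sq (c.p_sq s)
theorem x_inv (c : NC D f y p x) (s : F) : (x s)⁻¹ = x s := inv_of_sq (c.x_sq s)

theorem ff (c : NC D f y p x) (s t : F) : Commute (f s) (f t) := by
  show f s * f t = f t * f s
  rw [← c.f_add, ← c.f_add, add_comm]
theorem yy (c : NC D f y p x) (s t : F) : Commute (y s) (y t) := by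
  show y s * y t = y t * y s
  rw [← c.y_add, ← c.y_add, add_comm]
theorem pp (c : NC D f y p x) (s t : F) : Commute (p s) (p t) := by
  show p s * p t = p t * p s
  rw [← c.p_add, ← c.p_add, add_comm]
theorem xx (c : NC D f y p x) (s t : F) : Commute (x s) (x t) := by
  show x s * x t = x t * x s
  rw [← c.x_add, ← c.x_add, add_comm]

theorem w_sq (c : NC D f y p x) (s : F) : wN f x s * wN f x s = 1 := by
  unfold wN
  calc f s * x s⁻¹ * f s * (f s * x s⁻¹ * f s) = f s * x s⁻¹ * (f s * f s) * x s⁻¹ * f s := by group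
    _ = f s * (x s⁻¹ * x s⁻¹) * f s := by rw [c.f_sq]; group
    _ = 1 := by rw [c.x_sq, mul_one, c.f_sq]

theorem w_y (c : NC D f y p x) {s : F} (hs : s ≠ 0) (t : F) :
    wN f x s * y t * wN f x s = p (t * s⁻¹) := by
  unfold wN
  rw [cj_three, cj_of_comm (c.f_sq s) (c.fy s t), c.xy, cj_mul (c.f_sq s),
    cj_of_comm (c.f_sq s) (c.fy s t), c.fp, ← mul_assoc s, mul_inv_cancel₀ hs, one_mul]
  have h1 : Commute (p (s⁻¹ * t)) (y t) := (c.yp _ _).symm
  rw [h1.eq, ← mul_assoc, c.y_sq, one_mul, mul_comm t]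

theorem w_p (c : NC D f y p x) {s : F} (hs : s ≠ 0) (t : F) :
    wN f x s * p t * wN f x s = y (t * s) := by
  have h := c.w_y hs (t * s)
  rw [mul_assoc t, mul_inv_cancel₀ hs, mul_one] at h
  rw [← h, cj_cj (c.w_sq s)]

theorem w_f_self (c : NC D f y p x) {s : F} (hs : s ≠ 0) :
    wN f x s * f s * wN f x s = x s⁻¹ := by
  unfold wN
  calc f s * x s⁻¹ * f s * f s * (f s * x s⁻¹ * f s)
      = f s * x s⁻¹ * (f s * f s) * (f s * x s⁻¹ * f s) := by group
    _ = f s * (x s⁻¹ * f s * x s⁻¹) * f s := by rw [c.f_sq]; group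
    _ = f s * (f s * x s⁻¹ * f s) * f s := by rw [c.fx s hs]
    _ = x s⁻¹ := cj_cj (c.f_sq s)

theorem cube (c : NC D f y p x) {s : F} (hs : s ≠ 0) :
    f s * wN f x s * f s = wN f x s * f s * wN f x s := by
  rw [c.w_f_self hs]
  unfold wN
  exact cj_cj (c.f_sq s)

theorem h_mul (c : NC D f y p x) {s t : F} (hs : s ≠ 0) (ht : t ≠ 0) :
    hN f x (s * t) = hN f x s * hN f x t := c.hh s t hs ht

theorem w_swap (c : NC D f y p x) {s : F} (hs : s ≠ 0) : wN x f s = wN f x s⁻¹ := by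
  have h := c.fx s⁻¹ (inv_ne_zero hs)
  rw [inv_inv] at h
  unfold wN
  rw [inv_inv]
  exact h.symm

theorem p_inj (c : NC D f y p x) {s t : F} (h : p s = p t) (hne : ∀ r, p r = 1 → r = 0) :
    s = t := by
  have h1 : p (s + t) = 1 := by rw [c.p_add, h, c.p_sq]
  have h2 := hne _ h1
  calc s = s + t + t := by rw [add_assoc, c.two, add_zero]
    _ = t := by rw [h2, zero_add]

end zero

theorem f_ne (R : R2 D) (c : NC D f y p x) {s : F} (h : f s = 1) : s = 0 := by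
  by_contra hs; exact R.ne_one (c.f_D s hs) h
theorem y_ne (R : R2 D) (c : NC D f y p x) {s : F} (h : y s = 1) : s = 0 := by
  by_contra hs; exact R.ne_one (c.y_D s hs) h
theorem p_ne (R : R2 D) (c : NC D f y p x) {s : F} (h : p s = 1) : s = 0 := by
  by_contra hs; exact R.ne_one (c.p_D s hs) h
theorem x_ne (R : R2 D) (c : NC D f y p x) {s : F} (h : x s = 1) : s = 0 := by
  by_contra hs; exact R.ne_one (c.x_D s hs) h

theorem p_inj' (R : R2 D) (c : NC D f y p x) {s t : F} (h : p s = p t) : s = t :=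
  c.p_inj h fun _ hr => c.p_ne R hr

theorem swap (c : NC D f y p x) : NC D x p y f where
  two := c.two
  q := c.q
  f_add := c.x_add
  y_add := c.p_add
  p_add := c.y_add
  x_add := c.f_add
  f_D := c.x_D
  y_D := c.p_D
  p_D := c.y_D
  x_D := c.f_D
  f_iff := c.x_iff
  y_iff := c.p_iff
  p_iff := c.y_iff
  x_iff := c.f_iff
  fy := fun s t => (c.px t s).symm
  yp := fun s t => (c.yp t s).symm
  px := fun s t => (c.fy t s).symm
  fp := c.xy
  xy := c.fp
  fx := by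
    intro s hs
    have h := c.fx s⁻¹ (inv_ne_zero hs)
    rw [inv_inv] at h
    exact h.symm
  opp := fun s t hs ht => Opp.symm (c.f_sq t) (c.x_sq s) (c.opp t s ht hs)
  hh := by
    intro s t hs ht
    have e1 : x 1 * f 1⁻¹ * x 1 = wN x f 1 := rfl
    have e2 : x s * f s⁻¹ * x s = wN x f s := rfl
    have e3 : x t * f t⁻¹ * x t = wN x f t := rfl
    have e4 : x (s * t) * f (s * t)⁻¹ * x (s * t) = wN x f (s * t) := rfl
    rw [e1, e2, e3, e4, c.w_swap one_ne_zero, c.w_swap hs, c.w_swap ht, c.w_swap (mul_ne_zero hs ht),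
      inv_one, mul_inv]
    exact c.h_mul (inv_ne_zero hs) (inv_ne_zero ht)

theorem EG_f (R : R2 D) (c : NC D f y p x) {s : F} (hs : s ≠ 0) : EG D (f s) = EG D (f 1) :=
  R.EG_eq (c.f_D 1 one_ne_zero) ((c.f_iff _).2 ⟨s, rfl⟩) (R.ne_one (c.f_D s hs))
theorem EG_y (R : R2 D) (c : NC D f y p x) {s : F} (hs : s ≠ 0) : EG D (y s) = EG D (y 1) :=
  R.EG_eq (c.y_D 1 one_ne_zero) ((c.y_iff _).2 ⟨s, rfl⟩) (R.ne_one (c.y_D s hs))
theorem EG_p (R : R2 D) (c : NC D f y p x) {s : F} (hs : s ≠ 0) : EG D (p s) = EG D (p 1) :=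
  R.EG_eq (c.p_D 1 one_ne_zero) ((c.p_iff _).2 ⟨s, rfl⟩) (R.ne_one (c.p_D s hs))
theorem EG_x (R : R2 D) (c : NC D f y p x) {s : F} (hs : s ≠ 0) : EG D (x s) = EG D (x 1) :=
  R.EG_eq (c.x_D 1 one_ne_zero) ((c.x_iff _).2 ⟨s, rfl⟩) (R.ne_one (c.x_D s hs))

theorem w_D (R : R2 D) (c : NC D f y p x) {s : F} (hs : s ≠ 0) : wN f x s ∈ D :=
  conj_mem' R.h (c.x_D _ (inv_ne_zero hs)) (c.f_D s hs)

theorem w_f (R : R2 D) (c : NC D f y p x) {s : F} (hs : s ≠ 0) (t : F) :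
    wN f x s * f t * wN f x s = x (t * s⁻¹ * s⁻¹) := by
  have hw := c.w_sq s
  have hwi : (wN f x s)⁻¹ = wN f x s := inv_of_sq hw
  have h1 : wN f x s * f t * wN f x s ∈ EG D (x 1) := by
    have h2 : f t ∈ EG D (f s) := by rw [c.EG_f R hs]; exact (c.f_iff _).2 ⟨t, rfl⟩
    have h3 := R.EG_conj h2 (wN f x s)
    rw [hwi, c.w_f_self hs, c.EG_x R (inv_ne_zero hs)] at h3
    exact h3
  obtain ⟨r, hr⟩ := (c.x_iff _).1 h1
  rw [hr]
  congr 1
  have h4 := c.fp t s⁻¹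
  have h5 : wN f x s * (f t * p s⁻¹ * f t) * wN f x s =
      wN f x s * (p s⁻¹ * y (t * s⁻¹)) * wN f x s := by rw [h4]
  rw [cj_mul hw, cj_mul hw, cj_mul hw, hr, c.w_p hs, c.w_y hs, inv_mul_cancel₀ hs, c.xy,
    mul_one] at h5
  exact c.p_inj' R (mul_left_cancel h5)

theorem w_x (R : R2 D) (c : NC D f y p x) {s : F} (hs : s ≠ 0) (t : F) :
    wN f x s * x t * wN f x s = f (t * s * s) := by
  have h := c.w_f R hs (t * s * s)
  have e : t * s * s * s⁻¹ * s⁻¹ = t := by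
    field_simp
  rw [e] at h
  rw [← h, cj_cj (c.w_sq s)]

theorem w_f1 (R : R2 D) (c : NC D f y p x) : wN f x 1 * f 1 * wN f x 1 = x 1 := by
  rw [c.w_f R one_ne_zero]; simp

theorem h_inv (c : NC D f y p x) (s : F) : (hN f x s)⁻¹ = wN f x s * wN f x 1 := by
  unfold hN
  rw [mul_inv_rev, inv_of_sq (c.w_sq s), inv_of_sq (c.w_sq 1)]

theorem h_conj (c : NC D f y p x) (s : F) (g : G) :
    hN f x s * g * (hN f x s)⁻¹ = wN f x 1 * (wN f x s * g * wN f x s) * wN f x 1 := by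
  rw [c.h_inv]; unfold hN; group

theorem h_y (c : NC D f y p x) {s : F} (hs : s ≠ 0) (t : F) :
    hN f x s * y t * (hN f x s)⁻¹ = y (t * s⁻¹) := by
  rw [c.h_conj, c.w_y hs, c.w_p one_ne_zero, mul_one]

theorem h_p (c : NC D f y p x) {s : F} (hs : s ≠ 0) (t : F) :
    hN f x s * p t * (hN f x s)⁻¹ = p (t * s) := by
  rw [c.h_conj, c.w_p hs, c.w_y one_ne_zero, inv_one, mul_one]

theorem h_f (R : R2 D) (c : NC D f y p x) {s : F} (hs : s ≠ 0) (t : F) :
    hN f x s * f t * (hN f x s)⁻¹ = f (t * s⁻¹ * s⁻¹) := by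
  rw [c.h_conj, c.w_f R hs, c.w_x R one_ne_zero, mul_one, mul_one]

theorem h_x (R : R2 D) (c : NC D f y p x) {s : F} (hs : s ≠ 0) (t : F) :
    hN f x s * x t * (hN f x s)⁻¹ = x (t * s * s) := by
  rw [c.h_conj, c.w_x R hs, c.w_f R one_ne_zero, inv_one, mul_one, mul_one]

theorem conj_mul3 (g a b d : G) : g * (a * b * d) * g⁻¹ = (g * a * g⁻¹) * (g * b * g⁻¹) *
    (g * d * g⁻¹) := by group

theorem h_w (R : R2 D) (c : NC D f y p x) {s t : F} (hs : s ≠ 0) (ht : t ≠ 0) :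
    hN f x s * wN f x t * (hN f x s)⁻¹ = wN f x (t * s⁻¹ * s⁻¹) := by
  have e : (t * s⁻¹ * s⁻¹)⁻¹ = t⁻¹ * s * s := by
    field_simp
  have e2 : wN f x t = f t * x t⁻¹ * f t := rfl
  rw [e2, conj_mul3, c.h_f R hs, c.h_x R hs]
  unfold wN
  rw [e]

theorem h_one (c : NC D f y p x) : hN f x 1 = 1 := c.w_sq 1

theorem charTwo (c : NC D f y p x) : CharP F 2 := by
  have h : (2 : F) = 0 := by rw [← one_add_one_eq_two]; exact c.two 1
  exact CharTwo.of_one_ne_zero_of_two_eq_zero one_ne_zero h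

theorem exists_sqrt (c : NC D f y p x) (r : F) : ∃ s, s * s = r := by
  have := c.charTwo
  obtain ⟨s, hs⟩ := FiniteField.isSquare_of_char_two (F := F) (ringChar.eq F 2) r
  exact ⟨s, hs.symm⟩

/-- The members of `D` exchanging `E(f)` and `E(x)`. -/
theorem exists_w (R : R2 D) (c : NC D f y p x) {w : G} (hw : w ∈ D)
    (h : w * f 1 * w ∈ EG D (x 1)) : ∃ s, s ≠ 0 ∧ w = wN f x s := by
  obtain ⟨r, hr⟩ := (c.x_iff _).1 h
  have hr0 : r ≠ 0 := by
    rintro rfl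
    rw [c.x_zero] at hr
    have h1 : f 1 = 1 := by
      have h2 : w * (w * f 1 * w) * w = w * 1 * w := by rw [hr]
      rw [cj_cj (R.sq hw), mul_one, R.sq hw] at h2
      exact h2
    exact R.ne_one (c.f_D 1 one_ne_zero) h1
  obtain ⟨s, hs⟩ := c.exists_sqrt r⁻¹
  have hs0 : s ≠ 0 := by
    rintro rfl
    rw [mul_zero] at hs
    exact inv_ne_zero hr0 hs.symm
  have h1 : wN f x s * f 1 * wN f x s = x r := by
    rw [c.w_f R hs0]
    congr 1
    rw [one_mul, ← mul_inv, hs, inv_inv]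
  refine ⟨s, hs0, ?_⟩
  have hf := c.f_D 1 one_ne_zero
  have hx := c.x_D r hr0
  have ho := c.opp 1 r one_ne_zero hr0
  exact swap_unique (R.sq hw) (c.w_sq s) (R.opp_of_swap hf hx hw ho hr).2
    (R.opp_of_swap hf hx (c.w_D R hs0) ho h1).2 (R.sq hf) (hr.trans h1.symm)

/-! ### membership -/

theorem y_mem_M (R : R2 D) (c : NC D f y p x) (s : F) : y s ∈ MG D (y 1) :=
  R.EG_le_MG (c.y_D 1 one_ne_zero) ((c.y_iff _).2 ⟨s, rfl⟩)
theorem p_mem_M (R : R2 D) (c : NC D f y p x) (s : F) : p s ∈ MG D (p 1) :=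
  R.EG_le_MG (c.p_D 1 one_ne_zero) ((c.p_iff _).2 ⟨s, rfl⟩)

theorem f_mem_My (_R : R2 D) (c : NC D f y p x) (s : F) : f s ∈ MG D (y 1) := by
  by_cases hs : s = 0
  · rw [hs, c.f_zero]; exact one_mem _
  · exact mem_MG (c.f_D s hs) (c.fy _ _)
theorem y_mem_Mf (_R : R2 D) (c : NC D f y p x) (s : F) : y s ∈ MG D (f 1) := by
  by_cases hs : s = 0
  · rw [hs, c.y_zero]; exact one_mem _
  · exact mem_MG (c.y_D s hs) (c.fy _ _).symm
theorem p_mem_My (R : R2 D) (c : NC D f y p x) (s : F) : p s ∈ MG D (y 1) := by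
  by_cases hs : s = 0
  · rw [hs, c.p_zero]; exact one_mem _
  · exact mem_MG (c.p_D s hs) (c.yp _ _).symm
theorem y_mem_Mp (R : R2 D) (c : NC D f y p x) (s : F) : y s ∈ MG D (p 1) := by
  by_cases hs : s = 0
  · rw [hs, c.y_zero]; exact one_mem _
  · exact mem_MG (c.y_D s hs) (c.yp _ _)
theorem x_mem_Mp (R : R2 D) (c : NC D f y p x) (s : F) : x s ∈ MG D (p 1) := by
  by_cases hs : s = 0
  · rw [hs, c.x_zero]; exact one_mem _
  · exact mem_MG (c.x_D s hs) (c.px _ _).symm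
theorem p_mem_Mx (R : R2 D) (c : NC D f y p x) (s : F) : p s ∈ MG D (x 1) := by
  by_cases hs : s = 0
  · rw [hs, c.p_zero]; exact one_mem _
  · exact mem_MG (c.p_D s hs) (c.px _ _)

/-- `w(s)` exchanges `M_y` and `M_p`. -/
theorem w_Mp (R : R2 D) (c : NC D f y p x) {s : F} (hs : s ≠ 0) {k : G} (hk : k ∈ MG D (p 1)) :
    wN f x s * k * wN f x s ∈ MG D (y 1) := by
  have h := R.MG_conj hk (wN f x s)
  rw [inv_of_sq (c.w_sq s), c.w_p hs, one_mul] at h
  rwa [R.MG_eq (c.y_D 1 one_ne_zero) ((c.y_iff _).2 ⟨s, rfl⟩) (R.ne_one (c.y_D s hs))] at h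

theorem w_My (R : R2 D) (c : NC D f y p x) {s : F} (hs : s ≠ 0) {k : G} (hk : k ∈ MG D (y 1)) :
    wN f x s * k * wN f x s ∈ MG D (p 1) := by
  have h := R.MG_conj hk (wN f x s)
  rw [inv_of_sq (c.w_sq s), c.w_y hs, one_mul] at h
  rwa [R.MG_eq (c.p_D 1 one_ne_zero) ((c.p_iff _).2 ⟨_, rfl⟩)
    (R.ne_one (c.p_D _ (inv_ne_zero hs)))] at h

theorem w_Mf (R : R2 D) (c : NC D f y p x) {s : F} (hs : s ≠ 0) {k : G} (hk : k ∈ MG D (f 1)) :
    wN f x s * k * wN f x s ∈ MG D (x 1) := by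
  have h := R.MG_conj hk (wN f x s)
  have h0 : 1 * s⁻¹ * s⁻¹ ≠ 0 := mul_ne_zero (mul_ne_zero one_ne_zero (inv_ne_zero hs)) (inv_ne_zero hs)
  rw [inv_of_sq (c.w_sq s), c.w_f R hs] at h
  rwa [R.MG_eq (c.x_D 1 one_ne_zero) ((c.x_iff _).2 ⟨_, rfl⟩)
    (R.ne_one (c.x_D _ h0))] at h

theorem h_Mp (R : R2 D) (c : NC D f y p x) {s : F} (hs : s ≠ 0) {k : G} (hk : k ∈ MG D (p 1)) :
    hN f x s * k * (hN f x s)⁻¹ ∈ MG D (p 1) := by
  rw [c.h_conj]; exact c.w_My R one_ne_zero (c.w_Mp R hs hk)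

theorem h_My (R : R2 D) (c : NC D f y p x) {s : F} (hs : s ≠ 0) {k : G} (hk : k ∈ MG D (y 1)) :
    hN f x s * k * (hN f x s)⁻¹ ∈ MG D (y 1) := by
  rw [c.h_conj]; exact c.w_Mp R one_ne_zero (c.w_My R hs hk)

/-! ### the group `B` -/

theorem B_My (c : NC D f y p x) {b : G} (hb : b ∈ BG D f y p x) : b ∈ MG D (y 1) := hb.1.1
theorem B_Mp (c : NC D f y p x) {b : G} (hb : b ∈ BG D f y p x) : b ∈ MG D (p 1) := hb.1.2
theorem B_f (c : NC D f y p x) {b : G} (hb : b ∈ BG D f y p x) (s : F) : Commute b (f s) :=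
  (Subgroup.mem_centralizer_iff.1 hb.2 _ (Or.inl ⟨s, rfl⟩)).symm
theorem B_x (c : NC D f y p x) {b : G} (hb : b ∈ BG D f y p x) (s : F) : Commute b (x s) :=
  (Subgroup.mem_centralizer_iff.1 hb.2 _ (Or.inr ⟨s, rfl⟩)).symm
theorem B_y (R : R2 D) (c : NC D f y p x) {b : G} (hb : b ∈ BG D f y p x) (s : F) :
    Commute b (y s) := R.MG_comm (c.y_D 1 one_ne_zero) hb.1.1 ((c.y_iff _).2 ⟨s, rfl⟩)
theorem B_p (R : R2 D) (c : NC D f y p x) {b : G} (hb : b ∈ BG D f y p x) (s : F) :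
    Commute b (p s) := R.MG_comm (c.p_D 1 one_ne_zero) hb.1.2 ((c.p_iff _).2 ⟨s, rfl⟩)
theorem B_w (c : NC D f y p x) {b : G} (hb : b ∈ BG D f y p x) (s : F) : Commute b (wN f x s) :=
  ((c.B_f hb s).mul_right (c.B_x hb _)).mul_right (c.B_f hb s)
theorem B_h (c : NC D f y p x) {b : G} (hb : b ∈ BG D f y p x) (s : F) : Commute b (hN f x s) :=
  (c.B_w hb 1).mul_right (c.B_w hb s)

theorem mem_B (c : NC D f y p x) {b : G} (h1 : b ∈ MG D (y 1)) (h2 : b ∈ MG D (p 1))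
    (h3 : ∀ s, Commute b (f s)) (h4 : ∀ s, Commute b (x s)) : b ∈ BG D f y p x := by
  refine ⟨⟨h1, h2⟩, Subgroup.mem_centralizer_iff.2 ?_⟩
  rintro _ (⟨s, rfl⟩ | ⟨s, rfl⟩)
  · exact (h3 s).symm.eq
  · exact (h4 s).symm.eq

theorem B_swap (c : NC D f y p x) {b : G} : b ∈ BG D x p y f ↔ b ∈ BG D f y p x :=
  ⟨fun h => c.mem_B (c.swap.B_Mp h) (c.swap.B_My h) (c.swap.B_x h) (c.swap.B_f h),
    fun h => c.swap.mem_B (c.B_Mp h) (c.B_My h) (c.B_x h) (c.B_f h)⟩

end NC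

end Cfsg.Agent.H737.Far
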