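import Mathlib
import Cfsg.Agent.H731.FarR
import Cfsg.Agent.H738.FarCoord
import Cfsg.Agent.H736.FarK

/-!
# The torus acts trivially on the lines through the ends of a path
-/

set_option autoImplicit false

namespace Cfsg.Agent.H737.Far

open Cfsg Cfsg.Agent.H737 Cfsg.Agent.H736.Hole


variable {G : Type*} [Group G] {D : Set G} {F : Type} [Field F] [Fintype F]
variable [Finite G] {f y p x : F → G}

namespace NC

theorem ncomm_xy (R : R2 D) (c : NC D f y p x) {s t : F} (hs : s ≠ 0) (ht : t ≠ 0) :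
    ¬ Commute (x s) (y t) := by
  intro h
  have h1 := c.xy s t
  rw [cj_of_comm (c.x_sq s) h] at h1
  have h2 : p (s * t) = 1 := mul_eq_left.1 h1.symm
  exact mul_ne_zero hs ht (c.p_ne R h2)

theorem ncomm_fp (R : R2 D) (c : NC D f y p x) {s t : F} (hs : s ≠ 0) (ht : t ≠ 0) :
    ¬ Commute (f s) (p t) := c.swap.ncomm_xy R hs ht

theorem nsim_xp (R : R2 D) (c : NC D f y p x) : ¬ SimR D (x 1) (p 1) := by
  intro h
  have h1 := R.mem_of_sim (c.x_D 1 one_ne_zero) h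
  have h2 := R.comm_EG (c.p_D 1 one_ne_zero) (c.y_D 1 one_ne_zero) (c.yp 1 1) h1
  exact c.ncomm_xy R one_ne_zero one_ne_zero h2.symm

theorem nsim_yp (R : R2 D) (c : NC D f y p x) : ¬ SimR D (y 1) (p 1) := by
  intro h
  have h1 := R.mem_of_sim (c.p_D 1 one_ne_zero) h.symm
  have h2 := R.comm_EG (c.y_D 1 one_ne_zero) (c.f_D 1 one_ne_zero) (c.fy 1 1) h1
  exact c.ncomm_fp R one_ne_zero one_ne_zero h2

theorem nsim_fy (R : R2 D) (c : NC D f y p x) : ¬ SimR D (f 1) (y 1) := c.swap.nsim_xp R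

end NC

/-- `Y₀ = M_p ∩ C(x) ∩ C(y)`. -/
structure Y0 (D : Set G) (y p x : F → G) (k : G) : Prop where
  M : k ∈ MG D (p 1)
  x1 : Commute k (x 1)
  y1 : Commute k (y 1)

namespace Y0

theorem cx (R : R2 D) (c : NC D f y p x) {k : G} (h : Y0 D y p x k) (s : F) : Commute k (x s) :=
  R.comm_class (c.p_D 1 one_ne_zero) (c.x_D 1 one_ne_zero) (c.px 1 1).symm (c.nsim_xp R) h.M h.x1
    ((c.x_iff _).2 ⟨s, rfl⟩)

theorem cy (R : R2 D) (c : NC D f y p x) {k : G} (h : Y0 D y p x k) (s : F) : Commute k (y s) :=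
  R.comm_class (c.p_D 1 one_ne_zero) (c.y_D 1 one_ne_zero) (c.yp 1 1) (c.nsim_yp R) h.M h.y1
    ((c.y_iff _).2 ⟨s, rfl⟩)

theorem cp (R : R2 D) (c : NC D f y p x) {k : G} (h : Y0 D y p x k) (s : F) : Commute k (p s) :=
  R.MG_comm (c.p_D 1 one_ne_zero) h.M ((c.p_iff _).2 ⟨s, rfl⟩)

theorem mul {k l : G} (h : Y0 D y p x k) (h' : Y0 D y p x l) : Y0 D y p x (k * l) :=
  ⟨mul_mem h.M h'.M, h.x1.mul_left h'.x1, h.y1.mul_left h'.y1⟩

theorem inv {k : G} (h : Y0 D y p x k) : Y0 D y p x k⁻¹ :=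
  ⟨inv_mem h.M, h.x1.inv_left, h.y1.inv_left⟩

theorem hconj (R : R2 D) (c : NC D f y p x) {k : G} (h : Y0 D y p x k) {s : F} (hs : s ≠ 0) :
    Y0 D y p x (hN f x s * k * (hN f x s)⁻¹) := by
  refine ⟨c.h_Mp R hs h.M, ?_, ?_⟩
  · have h1 : x 1 = hN f x s * x (s⁻¹ * s⁻¹) * (hN f x s)⁻¹ := by
      rw [c.h_x R hs]; congr 1; field_simp
    rw [h1]; exact conj_commute_iff.2 (h.cx R c _)
  · have h1 : y 1 = hN f x s * y s * (hN f x s)⁻¹ := by
      rw [c.h_y hs]; congr 1; field_simp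
    rw [h1]; exact conj_commute_iff.2 (h.cy R c _)

theorem of_B (_R : R2 D) (c : NC D f y p x) {b : G} (hb : b ∈ BG D f y p x) : Y0 D y p x b :=
  ⟨c.B_Mp hb, c.B_x hb 1, c.B_y _R hb 1⟩

theorem of_p (R : R2 D) (c : NC D f y p x) (s : F) : Y0 D y p x (p s) :=
  ⟨c.p_mem_M R s, c.px s 1, (c.yp 1 s).symm⟩

/-- `l f l⁻¹` acts on `E(p)` as `f`. -/
theorem conj_f (R : R2 D) (c : NC D f y p x) {l : G} (h : Y0 D y p x l) (s t : F) :
    (l * f s * l⁻¹) * p t * (l * f s * l⁻¹)⁻¹ = p t * y (s * t) := by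
  have h1 : (l * f s * l⁻¹) * p t * (l * f s * l⁻¹)⁻¹ = l * (f s * (l⁻¹ * p t * l) * (f s)⁻¹) * l⁻¹ := by
    group
  have h2 : l⁻¹ * p t * l = p t := by
    rw [(h.cp R c t).inv_left.eq]; group
  rw [h1, h2, c.f_inv, c.fp]
  exact conj_eq_of_comm ((h.cp R c t).mul_right (h.cy R c _))

/-- `b = f l f l⁻¹ ∈ M_y`. -/
theorem b_mem (R : R2 D) (c : NC D f y p x) {l : G} (h : Y0 D y p x l) (s : F) :
    f s * l * f s * l⁻¹ ∈ MG D (y 1) := by
  have e : f s * l * f s * l⁻¹ = f s * (l * f s * l⁻¹) := by group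
  rw [e]
  refine mul_mem (c.f_mem_My R s) ?_
  have h1 := R.MG_conj (c.f_mem_My R s) l
  rwa [conj_eq_of_comm h.y1] at h1

theorem b_comm_p (R : R2 D) (c : NC D f y p x) {l : G} (h : Y0 D y p x l) (s t : F) :
    Commute (f s * l * f s * l⁻¹) (p t) := by
  apply comm_of_conj_eq
  have e : f s * l * f s * l⁻¹ * p t * (f s * l * f s * l⁻¹)⁻¹ =
      f s * ((l * f s * l⁻¹) * p t * (l * f s * l⁻¹)⁻¹) * (f s)⁻¹ := by group
  rw [e, h.conj_f R c, c.f_inv, cj_mul (c.f_sq s), c.fp, cj_of_comm (c.f_sq s) (c.fy _ _),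
    mul_assoc, c.y_sq, mul_one]

end Y0

/-- conjugation by an element commuting with `a` preserves `M_a`. -/
theorem R2.MG_norm (R : R2 D) {a g k : G} (hk : k ∈ MG D a) (hg : Commute g a) :
    g * k * g⁻¹ ∈ MG D a := by
  have h := R.MG_conj hk g
  rwa [conj_eq_of_comm hg] at h

/-- `⁅z, k⁆`. -/
def chi (k z : G) : G := z * k * z⁻¹ * k⁻¹

omit [Finite G] in
theorem chi_of_comm {k z : G} (h : Commute z k) : chi k z = 1 := by
  unfold chi; rw [h.eq]; group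

theorem chi_mem (R : R2 D) {a k z : G} (ha : a ∈ D) (hk : k ∈ MG D a) (hz : z ∈ MG D a) :
    chi k z ∈ EG D a := R.comm_MG ha hz hk

theorem chi_mul (R : R2 D) {a k z z' : G} (ha : a ∈ D) (hk : k ∈ MG D a) (hz : z ∈ MG D a)
    (hz' : z' ∈ MG D a) : chi k (z * z') = chi k z * chi k z' := by
  have h1 : Commute z (chi k z') := R.MG_comm ha hz (chi_mem R ha hk hz')
  have h2 : Commute (chi k z) (chi k z') := R.EG_comm ha (chi_mem R ha hk hz) (chi_mem R ha hk hz')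
  rw [h2.eq]
  calc chi k (z * z') = z * chi k z' * (k * z⁻¹ * k⁻¹) := by unfold chi; group
    _ = chi k z' * z * (k * z⁻¹ * k⁻¹) := by rw [h1.eq]
    _ = chi k z' * chi k z := by unfold chi; group

/-- The homomorphism `χ` on `M_y ∩ M_p` only depends on the `B`-part. -/
theorem chi_decomp (R : R2 D) (c : NC D f y p x) {k : G} (hk : Y0 D y p x k) {u v : F} {b : G}
    (hb : b ∈ BG D f y p x) : chi k (y u * p v * b) = chi k b := by
  have hp := c.p_D 1 one_ne_zero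
  rw [chi_mul R hp hk.M (mul_mem (c.y_mem_Mp R u) (c.p_mem_M R v)) (c.B_Mp hb),
    chi_mul R hp hk.M (c.y_mem_Mp R u) (c.p_mem_M R v), chi_of_comm (hk.cy R c u).symm,
    chi_of_comm (hk.cp R c v).symm, one_mul, one_mul]

theorem chi_y (R : R2 D) (c : NC D f y p x) {k z e : G} (hk : Y0 D y p x k)
    (hz : z ∈ MG D (p 1)) (he : e ∈ EG D (y 1)) : chi k (z * e) = chi k z := by
  obtain ⟨u, rfl⟩ := (c.y_iff _).1 he
  rw [chi_mul R (c.p_D 1 one_ne_zero) hk.M hz (c.y_mem_Mp R u), chi_of_comm (hk.cy R c u).symm,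
    mul_one]

theorem chi_h (R : R2 D) (c : NC D f y p x) {k z : G} (hk : Y0 D y p x k)
    (h1 : z ∈ MG D (y 1)) (h2 : z ∈ MG D (p 1)) {s : F} (hs : s ≠ 0) :
    chi k (hN f x s * z * (hN f x s)⁻¹) = chi k z := by
  obtain ⟨u, v, b, hb, rfl⟩ := Z_decomp R c h1 h2
  rw [NC.conj_mul3, c.h_y hs, c.h_p hs, conj_eq_of_comm (c.B_h hb s).symm, chi_decomp R c hk hb,
    chi_decomp R c hk hb]

/-- `ζ_s(k) = b_s(k)⁻¹ c_s(k)`. -/
def zeta (f x : F → G) (s : F) (k : G) : G := (f s * k * f s * k⁻¹)⁻¹ * (wN f x s * k * wN f x s)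

theorem zeta_mem_y (R : R2 D) (c : NC D f y p x) {k : G} (hk : Y0 D y p x k) {s : F} (hs : s ≠ 0) :
    zeta f x s k ∈ MG D (y 1) := (Cfsg.Agent.H736.FarK.zeta_mem R c hk.M hk.x1 hk.y1 hs).1
theorem zeta_mem_p (R : R2 D) (c : NC D f y p x) {k : G} (hk : Y0 D y p x k) {s : F} (hs : s ≠ 0) :
    zeta f x s k ∈ MG D (p 1) := (Cfsg.Agent.H736.FarK.zeta_mem R c hk.M hk.x1 hk.y1 hs).2

/-- `ζ_s(k^h)`. -/
theorem zeta_h (R : R2 D) (c : NC D f y p x) {k : G} {s t : F} (ht : t ≠ 0) (hs : s ≠ 0) :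
    zeta f x s (hN f x t * k * (hN f x t)⁻¹) =
      hN f x t * zeta f x (s * t * t) k * (hN f x t)⁻¹ := by
  have e1 : f s = hN f x t * f (s * t * t) * (hN f x t)⁻¹ := by
    rw [c.h_f R ht]; congr 1; field_simp
  have e2 : wN f x s = hN f x t * wN f x (s * t * t) * (hN f x t)⁻¹ := by
    rw [c.h_w R ht (mul_ne_zero (mul_ne_zero hs ht) ht)]; congr 1; field_simp
  unfold zeta
  rw [e1, e2]
  group

/-- `ζ_s(m p_r) = ζ_s(m)`. -/
theorem zeta_mul_p (R : R2 D) (c : NC D f y p x) {m : G} (hm : Y0 D y p x m) {s : F} (hs : s ≠ 0)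
    (r : F) : zeta f x s (m * p r) = zeta f x s m := by
  have hb : f s * (m * p r) * f s * (m * p r)⁻¹ = f s * m * f s * m⁻¹ * y (s * r) := by
    have h1 : p r * f s * p r = f s * y (s * r) := by
      calc p r * f s * p r = f s * (f s * p r * f s) * p r := by
            calc p r * f s * p r = 1 * p r * f s * p r := by group
              _ = (f s * f s) * p r * f s * p r := by rw [c.f_sq]
              _ = _ := by group
        _ = f s * (p r * y (s * r)) * p r := by rw [c.fp]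
        _ = f s * (y (s * r) * p r) * p r := by rw [(c.yp _ _).eq]
        _ = f s * y (s * r) * (p r * p r) := by group
        _ = _ := by rw [c.p_sq, mul_one]
    calc f s * (m * p r) * f s * (m * p r)⁻¹ = f s * m * (p r * f s * (p r)⁻¹) * m⁻¹ := by group
      _ = f s * m * (f s * y (s * r)) * m⁻¹ := by rw [c.p_inv, h1]
      _ = f s * m * f s * (y (s * r) * m⁻¹) := by group
      _ = f s * m * f s * (m⁻¹ * y (s * r)) := by rw [(hm.cy R c (s * r)).inv_left.eq]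
      _ = _ := by group
  have hc : wN f x s * (m * p r) * wN f x s = wN f x s * m * wN f x s * y (s * r) := by
    rw [cj_mul (c.w_sq s), c.w_p hs, mul_comm r s]
  unfold zeta
  rw [hb, hc]
  have hM : (f s * m * f s * m⁻¹)⁻¹ * (wN f x s * m * wN f x s) ∈ MG D (y 1) := zeta_mem_y R c hm hs
  have h2 : Commute ((f s * m * f s * m⁻¹)⁻¹ * (wN f x s * m * wN f x s)) (y (s * r)) :=
    R.MG_comm (c.y_D 1 one_ne_zero) hM ((c.y_iff _).2 ⟨_, rfl⟩)
  calc (f s * m * f s * m⁻¹ * y (s * r))⁻¹ * (wN f x s * m * wN f x s * y (s * r))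
      = (y (s * r))⁻¹ * (((f s * m * f s * m⁻¹)⁻¹ * (wN f x s * m * wN f x s)) * y (s * r)) := by
        group
    _ = (y (s * r))⁻¹ * (y (s * r) * ((f s * m * f s * m⁻¹)⁻¹ * (wN f x s * m * wN f x s))) := by
        rw [h2.eq]
    _ = _ := by group

/-- `Γ_s = k b⁻¹ k⁻¹ b` with `b = b_s(l)`. -/
def Gam (f : F → G) (s : F) (k l : G) : G :=
  k * (f s * l * f s * l⁻¹)⁻¹ * k⁻¹ * (f s * l * f s * l⁻¹)

theorem Gam_mem_y (R : R2 D) (c : NC D f y p x) {k l : G} (hk : Y0 D y p x k)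
    (hl : Y0 D y p x l) (s : F) : Gam f s k l ∈ MG D (y 1) :=
  mul_mem (R.MG_norm (inv_mem (hl.b_mem R c s)) hk.y1) (hl.b_mem R c s)

theorem Gam_mem_p (R : R2 D) (c : NC D f y p x) {k l : G} (hk : Y0 D y p x k)
    (hl : Y0 D y p x l) (s : F) : Gam f s k l ∈ MG D (p 1) := by
  have h1 : (f s * l * f s * l⁻¹)⁻¹ * k⁻¹ * (f s * l * f s * l⁻¹)⁻¹⁻¹ ∈ MG D (p 1) :=
    R.MG_norm (inv_mem hk.M) (hl.b_comm_p R c s 1).inv_left
  have e : Gam f s k l = k * ((f s * l * f s * l⁻¹)⁻¹ * k⁻¹ * (f s * l * f s * l⁻¹)⁻¹⁻¹) := by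
    unfold Gam; group
  rw [e]; exact mul_mem hk.M h1

/-- product formula for `χ(ζ_s(k l))`. -/
theorem chi_zeta_mul (R : R2 D) (c : NC D f y p x) {k l : G} (hk : Y0 D y p x k)
    (hl : Y0 D y p x l) {s : F} (hs : s ≠ 0) :
    chi k (zeta f x s (k * l)) = chi k (Gam f s k l) * chi k (zeta f x s k) *
      chi k (zeta f x s l) := by
  have hp := c.p_D 1 one_ne_zero
  have hy := c.y_D 1 one_ne_zero
  have hzk := zeta_mem_y R c hk hs
  have hbl := hl.b_mem R c s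
  obtain ⟨e, he, h1⟩ := R.MG_conj_eq hy (inv_mem hbl) hzk
  -- `b⁻¹ ζ b = ζ e`
  have e1 : zeta f x s (k * l) = Gam f s k l * (zeta f x s k * e) * zeta f x s l := by
    rw [← h1]
    have hc : wN f x s * (k * l) * wN f x s = (wN f x s * k * wN f x s) * (wN f x s * l * wN f x s) :=
      cj_mul (c.w_sq s) k l
    have hb : f s * (k * l) * f s * (k * l)⁻¹ =
        (f s * k * f s * k⁻¹) * (k * (f s * l * f s * l⁻¹) * k⁻¹) := by
      calc f s * (k * l) * f s * (k * l)⁻¹ = f s * k * 1 * l * f s * l⁻¹ * k⁻¹ := by group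
        _ = f s * k * (f s * f s) * l * f s * l⁻¹ * k⁻¹ := by rw [c.f_sq]
        _ = _ := by group
    unfold zeta Gam
    rw [hc, hb]
    group
  rw [e1]
  have hzkp := zeta_mem_p R c hk hs
  have hzlp := zeta_mem_p R c hl hs
  have hG := Gam_mem_p R c hk hl s
  obtain ⟨u, hu⟩ := (c.y_iff _).1 he
  have hep : e ∈ MG D (p 1) := by rw [hu]; exact c.y_mem_Mp R u
  rw [chi_mul R hp hk.M (mul_mem hG (mul_mem hzkp hep)) hzlp,
    chi_mul R hp hk.M hG (mul_mem hzkp hep), chi_y R c hk hzkp he]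

/-- additivity of `χ(Γ_s)` in `s`. -/
theorem chi_Gam_add (R : R2 D) (c : NC D f y p x) {k l : G} (hk : Y0 D y p x k)
    (hl : Y0 D y p x l) (s s' : F) :
    chi k (Gam f (s + s') k l) = chi k (Gam f s k l) * chi k (Gam f s' k l) := by
  have hp := c.p_D 1 one_ne_zero
  have hy := c.y_D 1 one_ne_zero
  set b := f s * l * f s * l⁻¹ with hb
  set b' := f s' * l * f s' * l⁻¹ with hb'
  have hbM : b ∈ MG D (y 1) := hl.b_mem R c s
  have hb'M : b' ∈ MG D (y 1) := hl.b_mem R c s'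
  obtain ⟨e, he, h1⟩ := R.MG_conj_eq hy (c.f_mem_My R s) hb'M
  rw [c.f_inv] at h1
  have e1 : f (s + s') * l * f (s + s') * l⁻¹ = b' * b * e := by
    have h2 : Commute e b := (R.MG_comm hy hbM he).symm
    calc f (s + s') * l * f (s + s') * l⁻¹ = f s * (f s' * l * (f s' * f s)) * l⁻¹ := by
          rw [c.f_add s s']
          conv_lhs => rw [(c.ff s s').eq, mul_assoc (f s' * f s)]
          rw [← (c.ff s s').eq]
          group
      _ = f s * b' * 1 * l * f s * l⁻¹ := by rw [hb']; group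
      _ = (f s * b' * f s) * b := by rw [← c.f_sq s, hb]; group
      _ = b' * (e * b) := by rw [h1]; group
      _ = b' * b * e := by rw [h2.eq]; group
  obtain ⟨u, hu⟩ := (c.y_iff _).1 he
  have hke : Commute k e := by rw [hu]; exact hk.cy R c u
  have e2 : Gam f (s + s') k l = Gam f s k l * (b⁻¹ * Gam f s' k l * b⁻¹⁻¹) := by
    unfold Gam
    rw [e1, ← hb, ← hb']
    calc k * (b' * b * e)⁻¹ * k⁻¹ * (b' * b * e)
        = (k * e⁻¹) * b⁻¹ * b'⁻¹ * k⁻¹ * (b' * b) * e := by group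
      _ = (e⁻¹ * k) * b⁻¹ * b'⁻¹ * k⁻¹ * (b' * b) * e := by rw [hke.inv_right.eq]
      _ = e⁻¹ * ((k * (b' * b)⁻¹ * k⁻¹ * (b' * b)) * e) := by group
      _ = e⁻¹ * (e * (k * (b' * b)⁻¹ * k⁻¹ * (b' * b))) := by
          have h3 : Commute (k * (b' * b)⁻¹ * k⁻¹ * (b' * b)) e := by
            refine R.MG_comm hy ?_ he
            exact mul_mem (R.MG_norm (inv_mem (mul_mem hb'M hbM)) hk.y1) (mul_mem hb'M hbM)
          rw [h3.eq]
      _ = k * b⁻¹ * k⁻¹ * b * (b⁻¹ * (k * b'⁻¹ * k⁻¹ * b') * b⁻¹⁻¹) := by group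
  obtain ⟨e', he', h4⟩ := R.MG_conj_eq hy (inv_mem hbM) (Gam_mem_y R c hk hl s')
  rw [e2, h4]
  obtain ⟨u', hu'⟩ := (c.y_iff _).1 he'
  have hep : e' ∈ MG D (p 1) := by rw [hu']; exact c.y_mem_Mp R u'
  rw [chi_mul R hp hk.M (Gam_mem_p R c hk hl s) (mul_mem (Gam_mem_p R c hk hl s') hep),
    chi_y R c hk (Gam_mem_p R c hk hl s') he']

/-- (β) -/
theorem beta (R : R2 D) (c : NC D f y p x) {k : G} (hk : k ∈ MG D (p 1))
    (hkx : Commute k (x 1)) (hky : Commute k (y 1)) {t : F} (ht : t ≠ 0) (ht1 : t ≠ 1)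
    (hP : k * (hN f x t * k * (hN f x t)⁻¹) * (hN f x (1 + t) * k * (hN f x (1 + t))⁻¹) ∈ EG D (p 1)) :
    k * k = 1 := by
  have hp := c.p_D 1 one_ne_zero
  have hY : Y0 D y p x k := ⟨hk, hkx, hky⟩
  have ht2 : 1 + t ≠ 0 := by
    intro h
    apply ht1
    calc t = 1 + (1 + t) := by rw [← add_assoc, c.two, zero_add]
      _ = 1 := by rw [h, add_zero]
  obtain ⟨e, κ₀, hkk, -, hκ⟩ := Cfsg.Agent.H736.FarK.kappa R c hk hkx hky
  -- χ(ζ_s(k))
  have hz : ∀ s : F, s ≠ 0 → chi k (zeta f x s k) = p (e + κ₀ * s) := by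
    intro s hs
    obtain ⟨u, v, b, hb, hzb⟩ := Z_decomp R c (zeta_mem_y R c hY hs) (zeta_mem_p R c hY hs)
    rw [hzb, chi_decomp R c hY hb]
    exact hκ s hs u v b hb hzb
  set l : G := hN f x t * k * (hN f x t)⁻¹ with hl
  set m : G := hN f x (1 + t) * k * (hN f x (1 + t))⁻¹ with hm
  have hlY : Y0 D y p x l := hY.hconj R c ht
  have hmY : Y0 D y p x m := hY.hconj R c ht2
  -- `k l = m p_r`
  obtain ⟨r, hr⟩ := (c.p_iff _).1 hP
  obtain ⟨r', hr'⟩ := (c.p_iff _).1 (R.MG_sq hp hmY.M)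
  have hkl : k * l = m * p (r + r') := by
    have h1 : m⁻¹ = m * p r' := by
      have h2 : m * (m * p r') = 1 := by rw [← mul_assoc, hr', c.p_sq]
      exact inv_eq_of_mul_eq_one_right h2
    calc k * l = (k * l * m) * m⁻¹ := by group
      _ = p r * (m * p r') := by rw [hr, h1]
      _ = m * p r * p r' := by rw [← mul_assoc, (hmY.cp R c r).eq]
      _ = m * p (r + r') := by rw [c.p_add, mul_assoc]
  have hs1 : ∀ s : F, s ≠ 0 → chi k (Gam f s k l) = p e := by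
    intro s hs
    have h1 := chi_zeta_mul R c hY hlY hs
    rw [hkl, zeta_mul_p R c hmY hs, hm, zeta_h R c ht2 hs,
      chi_h R c hY (zeta_mem_y R c hY (mul_ne_zero (mul_ne_zero hs ht2) ht2))
        (zeta_mem_p R c hY (mul_ne_zero (mul_ne_zero hs ht2) ht2)) ht2,
      hz _ (mul_ne_zero (mul_ne_zero hs ht2) ht2), hz _ hs] at h1
    have h2 : chi k (zeta f x s l) = p (e + κ₀ * (s * t * t)) := by
      rw [hl, zeta_h R c ht hs, chi_h R c hY (zeta_mem_y R c hY (mul_ne_zero (mul_ne_zero hs ht) ht))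
        (zeta_mem_p R c hY (mul_ne_zero (mul_ne_zero hs ht) ht)) ht,
        hz _ (mul_ne_zero (mul_ne_zero hs ht) ht)]
    rw [h2] at h1
    have h3 : chi k (Gam f s k l) = p (e + κ₀ * (s * (1 + t) * (1 + t))) *
        (p (e + κ₀ * s) * p (e + κ₀ * (s * t * t)))⁻¹ := by
      rw [h1]; group
    rw [h3, ← c.p_add, c.p_inv, ← c.p_add]
    congr 1
    have h2t : (2 : F) = 0 := by rw [← one_add_one_eq_two]; exact c.two 1
    linear_combination (e + κ₀ * s + κ₀ * s * t + κ₀ * s * t ^ 2) * h2t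
  have h5 := chi_Gam_add R c hY hlY 1 t
  rw [hs1 _ ht2, hs1 1 one_ne_zero, hs1 t ht, c.p_sq] at h5
  rw [hkk, h5]

/-! ### lines -/

theorem R2.col (R : R2 D) {a b : G} (ha : a ∈ D) (hb : b ∈ D) (hba : Commute b a)
    (hs : ¬ SimR D b a) : Col D a b := by
  refine R.N.col_of ha hb hba (R.four a ha b hb hba ?_) hs
  rintro rfl; exact hs (SimR.refl D b)

/-- Being on one line through `a` is transitive. -/
theorem R2.line_trans (R : R2 D) {a u v w : G} (ha : a ∈ D) (hu : u ∈ D) (hv : v ∈ D) (hw : w ∈ D)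
    (hua : Commute u a) (hva : Commute v a) (hwa : Commute w a) (hs : ¬ SimR D v a)
    (huv : Commute u v) (hvw : Commute v w) : Commute u w :=
  R.N.LS_comm (R.col ha hv hva hs) (R.line a ha v hv u hu hva hs hua huv)
    (R.line a ha v hv w hw hva hs hwa hvw.symm)

theorem NC.card (R : R2 D) (c : NC D f y p x) : Fintype.card F = Nat.card (EG D (f 1)) := by
  rw [← Nat.card_eq_fintype_card]
  refine Nat.card_congr (Equiv.ofBijective
    (fun s : F => (⟨f s, (c.f_iff _).2 ⟨s, rfl⟩⟩ : EG D (f 1))) ⟨?_, ?_⟩)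
  · intro s t hst
    have h1 : f s = f t := congrArg Subtype.val hst
    have h2 : f (s + t) = 1 := by rw [c.f_add, h1, c.f_sq]
    have h3 := c.f_ne R h2
    calc s = s + t + t := by rw [add_assoc, c.two, add_zero]
      _ = t := by rw [h3, zero_add]
  · rintro ⟨g, hg⟩
    obtain ⟨s, rfl⟩ := (c.f_iff g).1 hg
    exact ⟨s, rfl⟩

theorem NC.card' (R : R2 D) (c : NC D f y p x) {g : G} (hg : g ∈ D) :
    Fintype.card F = Nat.card (EG D g) := by
  rw [c.card R, R.N.card_EG (c.f_D 1 one_ne_zero) hg]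

/-- There is a second line on `x`. -/
theorem NC.exists_g (R : R2 D) (c : NC D f y p x) :
    ∃ g ∈ D, Commute g (x 1) ∧ ¬ Commute g (p 1) := by
  have hp := c.p_D 1 one_ne_zero
  have hx := c.x_D 1 one_ne_zero
  have hy := c.y_D 1 one_ne_zero
  obtain ⟨k, hk⟩ := exists_conj_of_connected R.h R.hc hp hx
  have h1 : Commute (k * y 1 * k⁻¹) (x 1) := by rw [← hk]; exact conj_commute_iff.2 (c.yp 1 1)
  have h2 : Commute (k * x 1 * k⁻¹) (x 1) := by
    conv_rhs => rw [← hk]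
    exact conj_commute_iff.2 (c.px 1 1).symm
  by_contra hcon
  push Not at hcon
  have hyD := R.h.conj_mem _ hy k
  have hxD := R.h.conj_mem _ hx k
  have h3 := R.line_trans hx hyD hp hxD h1 (c.px 1 1) h2 (fun hs => c.nsim_xp R hs.symm)
    (hcon _ hyD h1) (hcon _ hxD h2).symm
  exact c.ncomm_xy R one_ne_zero one_ne_zero (conj_commute_iff.1 h3).symm

/-- coordinates on the path `g – x – p – y`. -/
theorem NC.exists_shift (R : R2 D) (c : NC D f y p x) {g : G} (hg : g ∈ D)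
    (hgx : Commute g (x 1)) (hgp : ¬ Commute g (p 1)) :
    ∃ f' y' p' x' : F → G, NC D f' y' p' x' ∧ SimR D (f' 1) g ∧ SimR D (y' 1) (x 1) ∧
      SimR D (p' 1) (p 1) ∧ SimR D (x' 1) (y 1) :=
  exists_NC R hg (c.x_D 1 one_ne_zero) (c.p_D 1 one_ne_zero) (c.y_D 1 one_ne_zero) hgx
    (c.px 1 1).symm (c.yp 1 1).symm hgp (c.ncomm_xy R one_ne_zero one_ne_zero) (c.card' R hg)

/-! ### `θ(k) = k k^{h_t} k^{h_{1+t}}` -/

def theta (f x : F → G) (t : F) (k : G) : G :=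
  k * (hN f x t * k * (hN f x t)⁻¹) * (hN f x (1 + t) * k * (hN f x (1 + t))⁻¹)

theorem theta_Y0 (R : R2 D) (c : NC D f y p x) {k : G} (hk : Y0 D y p x k) {t : F} (ht : t ≠ 0)
    (ht2 : 1 + t ≠ 0) : Y0 D y p x (theta f x t k) :=
  (hk.mul (hk.hconj R c ht)).mul (hk.hconj R c ht2)

/-- `b l = ⁅b, l⁆ l b` in `M_p`. -/
theorem swap_mul (R : R2 D) (c : NC D f y p x) {b l : G} (hb : b ∈ MG D (p 1))
    (hl : l ∈ MG D (p 1)) : ∃ r, b * l = p r * (l * b) := by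
  obtain ⟨r, hr⟩ := (c.p_iff _).1 (R.comm_MG (c.p_D 1 one_ne_zero) hb hl)
  exact ⟨r, by rw [← hr]; group⟩

theorem theta_comm_B (R : R2 D) (c : NC D f y p x) {k : G} (hk : Y0 D y p x k) {t : F}
    (ht : t ≠ 0) (ht2 : 1 + t ≠ 0) {b : G} (hb : b ∈ BG D f y p x) :
    Commute b (theta f x t k) := by
  obtain ⟨r, hr⟩ := swap_mul R c (c.B_Mp hb) hk.M
  have hconj : ∀ s : F, s ≠ 0 → b * (hN f x s * k * (hN f x s)⁻¹) =
      p (r * s) * ((hN f x s * k * (hN f x s)⁻¹) * b) := by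
    intro s hs
    have h1 := (c.B_h hb s).eq
    have h2 := (c.B_h hb s).inv_right.eq
    calc b * (hN f x s * k * (hN f x s)⁻¹) = (b * hN f x s) * k * (hN f x s)⁻¹ := by group
      _ = (hN f x s * b) * k * (hN f x s)⁻¹ := by rw [h1]
      _ = hN f x s * (b * k) * (hN f x s)⁻¹ := by group
      _ = hN f x s * (p r * (k * b)) * (hN f x s)⁻¹ := by rw [hr]
      _ = (hN f x s * p r * (hN f x s)⁻¹) * (hN f x s * k * (b * (hN f x s)⁻¹)) := by group
      _ = (hN f x s * p r * (hN f x s)⁻¹) * (hN f x s * k * ((hN f x s)⁻¹ * b)) := by rw [h2]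
      _ = p (r * s) * ((hN f x s * k * (hN f x s)⁻¹) * b) := by rw [c.h_p hs]; group
  have hk1 := hk.hconj R c ht
  have hk2 := hk.hconj R c ht2
  set l := hN f x t * k * (hN f x t)⁻¹ with hl
  set m := hN f x (1 + t) * k * (hN f x (1 + t))⁻¹ with hm
  have hl1 := hconj t ht
  have hm1 := hconj (1 + t) ht2
  rw [← hl] at hl1
  rw [← hm] at hm1
  show b * (k * l * m) = k * l * m * b
  have ek := (hk.cp R c (r * t)).eq
  have ek2 := ((hk.mul hk1).cp R c (r * (1 + t))).eq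
  calc b * (k * l * m) = (b * k) * l * m := by group
    _ = p r * k * (b * l) * m := by rw [hr]; group
    _ = p r * (k * p (r * t)) * l * (b * m) := by rw [hl1]; group
    _ = p r * (p (r * t) * k) * l * (p (r * (1 + t)) * (m * b)) := by rw [ek, hm1]
    _ = p r * p (r * t) * ((k * l) * p (r * (1 + t))) * (m * b) := by group
    _ = p r * p (r * t) * (p (r * (1 + t)) * (k * l)) * (m * b) := by rw [ek2]
    _ = (p r * p (r * t) * p (r * (1 + t))) * (k * l * m * b) := by group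
    _ = k * l * m * b := by
      rw [← c.p_add, ← c.p_add]
      have h0 : r + r * t + r * (1 + t) = 0 := by
        have := c.two (r + r * t)
        linear_combination this
      rw [h0, c.p_zero, one_mul]

/-- `θ(k) ∈ E(p) B`. -/
theorem theta_decomp (R : R2 D) (c : NC D f y p x) {k : G} (hk : Y0 D y p x k) {t : F}
    (ht : t ≠ 0) (ht2 : 1 + t ≠ 0) :
    theta f x t k ∈ MG D (y 1) ∧ ∃ v, ∃ b ∈ BG D f y p x, theta f x t k = p v * b := by
  have hY := theta_Y0 R c hk ht ht2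
  have h1 : theta f x t k ∈ MG D (y 1) := by
    refine Cfsg.Agent.H736.FarK.alpha R c hY.M ?_
    intro z hz1 hz2
    obtain ⟨u, v, b, hb, rfl⟩ := Z_decomp R c hz1 hz2
    exact ((hY.cy R c u).mul_right (hY.cp R c v)).mul_right (theta_comm_B R c hk ht ht2 hb).symm
  refine ⟨h1, ?_⟩
  obtain ⟨u, v, b, hb, he⟩ := Z_decomp R c h1 hY.M
  have hu : u = 0 := by
    by_contra hu
    apply c.ncomm_xy R one_ne_zero hu
    have h2 : y u = theta f x t k * b⁻¹ * (p v)⁻¹ := by rw [he]; group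
    rw [h2]
    exact ((hY.cx R c 1).symm.mul_right (c.B_x hb 1).symm.inv_right).mul_right
      (c.px v 1).symm.inv_right
  exact ⟨v, b, hb, by rw [he, hu, c.y_zero, one_mul]⟩

/-- `k ∈ Ŷ`. -/
def YH (D : Set G) (f y p x : F → G) (t : F) (k : G) : Prop :=
  Y0 D y p x k ∧ theta f x t k ∈ EG D (p 1)

theorem YH.sq (R : R2 D) (c : NC D f y p x) {t : F} (ht : t ≠ 0) (ht1 : t ≠ 1) {k : G}
    (hk : YH D f y p x t k) : k * k = 1 :=
  beta R c hk.1.M hk.1.x1 hk.1.y1 ht ht1 hk.2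

theorem YH.mul (R : R2 D) (c : NC D f y p x) {t : F} (ht : t ≠ 0) (ht2 : 1 + t ≠ 0) {k k' : G}
    (hk : YH D f y p x t k) (hk' : YH D f y p x t k') : YH D f y p x t (k * k') := by
  refine ⟨hk.1.mul hk'.1, ?_⟩
  have hl := hk.1.hconj R c ht
  have hm := hk.1.hconj R c ht2
  have hl' := hk'.1.hconj R c ht
  have hm' := hk'.1.hconj R c ht2
  have h1 := hk.2
  have h2 := hk'.2
  unfold theta at h1 h2 ⊢
  set l := hN f x t * k * (hN f x t)⁻¹ with hldef
  set m := hN f x (1 + t) * k * (hN f x (1 + t))⁻¹ with hmdef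
  set l' := hN f x t * k' * (hN f x t)⁻¹ with hl'def
  set m' := hN f x (1 + t) * k' * (hN f x (1 + t))⁻¹ with hm'def
  have e1 : hN f x t * (k * k') * (hN f x t)⁻¹ = l * l' := by rw [hldef, hl'def]; group
  have e2 : hN f x (1 + t) * (k * k') * (hN f x (1 + t))⁻¹ = m * m' := by
    rw [hmdef, hm'def]; group
  rw [e1, e2]
  obtain ⟨r, hr⟩ := swap_mul R c hk'.1.M hl.M
  obtain ⟨r', hr'⟩ := swap_mul R c (mul_mem hk'.1.M hl'.M) hm.M
  have c1 := (hk.1.cp R c r).eq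
  have c2 := ((hk.1.mul hl).cp R c r').eq
  have e3 : k * k' * (l * l') * (m * m') = p r * p r' * (k * l * m) * (k' * l' * m') := by
    calc k * k' * (l * l') * (m * m') = k * (k' * l) * l' * (m * m') := by group
      _ = (k * p r) * l * ((k' * l') * m) * m' := by rw [hr]; group
      _ = (p r * k) * l * (p r' * (m * (k' * l'))) * m' := by rw [c1, hr']
      _ = p r * ((k * l) * p r') * (m * (k' * l')) * m' := by group
      _ = p r * (p r' * (k * l)) * (m * (k' * l')) * m' := by rw [c2]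
      _ = _ := by group
  rw [e3]
  exact mul_mem (mul_mem (mul_mem ((c.p_iff _).2 ⟨r, rfl⟩) ((c.p_iff _).2 ⟨r', rfl⟩)) h1) h2

theorem YH.comm (R : R2 D) (c : NC D f y p x) {t : F} (ht : t ≠ 0) (ht1 : t ≠ 1)
    (ht2 : 1 + t ≠ 0) {k k' : G} (hk : YH D f y p x t k) (hk' : YH D f y p x t k') :
    Commute k k' := by
  have h1 := hk.sq R c ht ht1
  have h2 := hk'.sq R c ht ht1
  have h3 := (hk.mul R c ht ht2 hk').sq R c ht ht1
  show k * k' = k' * k
  calc k * k' = k * k' * (k * k') * (k * k')⁻¹ := by group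
    _ = k'⁻¹ * k⁻¹ := by rw [h3]; group
    _ = k' * k := by rw [inv_of_sq h1, inv_of_sq h2]

/-- `Y₀ = Ŷ B`. -/
theorem exists_YH (R : R2 D) (c : NC D f y p x) {t : F} (ht : t ≠ 0) (ht2 : 1 + t ≠ 0) {k : G}
    (hk : Y0 D y p x k) : ∃ b ∈ BG D f y p x, YH D f y p x t (k * b) := by
  obtain ⟨-, v, b, hb, he⟩ := theta_decomp R c hk ht ht2
  refine ⟨b, hb, hk.mul (Y0.of_B R c hb), ?_⟩
  have hl := hk.hconj R c ht
  have hm := hk.hconj R c ht2
  unfold theta at he ⊢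
  set l := hN f x t * k * (hN f x t)⁻¹ with hldef
  set m := hN f x (1 + t) * k * (hN f x (1 + t))⁻¹ with hmdef
  have hbb : b * b = 1 := Z_sq R c (c.B_My hb) (c.B_Mp hb)
  have e1 : hN f x t * (k * b) * (hN f x t)⁻¹ = l * b := by
    have h1 := conj_eq_of_comm (c.B_h hb t).symm
    calc hN f x t * (k * b) * (hN f x t)⁻¹ = l * (hN f x t * b * (hN f x t)⁻¹) := by
          rw [hldef]; group
      _ = l * b := by rw [h1]
  have e2 : hN f x (1 + t) * (k * b) * (hN f x (1 + t))⁻¹ = m * b := by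
    have h1 := conj_eq_of_comm (c.B_h hb (1 + t)).symm
    calc hN f x (1 + t) * (k * b) * (hN f x (1 + t))⁻¹ =
        m * (hN f x (1 + t) * b * (hN f x (1 + t))⁻¹) := by rw [hmdef]; group
      _ = m * b := by rw [h1]
  rw [e1, e2]
  obtain ⟨r, hr⟩ := swap_mul R c (c.B_Mp hb) hl.M
  have c1 := (hk.cp R c r).eq
  have e3 : k * b * (l * b) * (m * b) = p r * p v := by
    calc k * b * (l * b) * (m * b) = k * (b * l) * b * (m * b) := by group
      _ = (k * p r) * l * (b * b) * (m * b) := by rw [hr]; group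
      _ = p r * (k * l * m) * b := by rw [c1, hbb]; group
      _ = p r * (p v * b) * b := by rw [he]
      _ = p r * p v * (b * b) := by group
      _ = p r * p v := by rw [hbb, mul_one]
  rw [e3]
  exact mul_mem ((c.p_iff _).2 ⟨r, rfl⟩) ((c.p_iff _).2 ⟨v, rfl⟩)

/-- `h(s)` normalises `M_x`. -/
theorem h_Mx (R : R2 D) (c : NC D f y p x) {s : F} (hs : s ≠ 0) {k : G} (hk : k ∈ MG D (x 1)) :
    hN f x s * k * (hN f x s)⁻¹ ∈ MG D (x 1) := by
  have h := R.MG_conj hk (hN f x s)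
  have h0 : 1 * s * s ≠ 0 := mul_ne_zero (mul_ne_zero one_ne_zero hs) hs
  rw [c.h_x R hs] at h
  rwa [R.MG_eq (c.x_D 1 one_ne_zero) ((c.x_iff _).2 ⟨_, rfl⟩) (R.ne_one (c.x_D _ h0))] at h

/-- `M_x ∩ M_p ∩ C(y) ⊆ Ŷ` (three lines on `p`). -/
theorem YH_of_Mx (R : R2 D) (c : NC D f y p x) {t : F} (ht : t ≠ 0) (ht2 : 1 + t ≠ 0)
    {e : G} (he : e ∈ D) (hep : Commute e (p 1)) (hey : ¬ Commute e (y 1))
    (hex : ¬ Commute e (x 1)) {z : G} (hz1 : z ∈ MG D (x 1)) (hz2 : z ∈ MG D (p 1))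
    (hzy : Commute z (y 1)) : YH D f y p x t z := by
  have hY : Y0 D y p x z :=
    ⟨hz2, R.MG_comm (c.x_D 1 one_ne_zero) hz1 (R.self_mem (c.x_D 1 one_ne_zero)), hzy⟩
  refine ⟨hY, ?_⟩
  refine gamma R c.swap he hep hey hex ?_ (theta_Y0 R c hY ht ht2).M
    (theta_decomp R c hY ht ht2).1
  exact mul_mem (mul_mem hz1 (h_Mx R c ht hz1)) (h_Mx R c ht2 hz1)

/-- correcting by an element of `E(x)`. -/
theorem exists_corr (R : R2 D) (c : NC D f y p x) {z : G} (hz : z ∈ MG D (p 1)) :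
    ∃ r, Commute (z * x r) (y 1) := by
  obtain ⟨e, he, h1⟩ := R.MG_conj_eq (c.p_D 1 one_ne_zero) (c.y_mem_Mp R 1) hz
  obtain ⟨r, rfl⟩ := (c.p_iff _).1 he
  refine ⟨r, Commute.symm (comm_of_conj_eq ?_)⟩
  have h2 : y 1 * x r * (y 1)⁻¹ = x r * p r := by
    have h3 := c.xy r 1
    rw [mul_one] at h3
    calc y 1 * x r * (y 1)⁻¹ = (x r * x r) * y 1 * x r * (y 1)⁻¹ := by rw [c.x_sq]; group
      _ = x r * (x r * y 1 * x r) * (y 1)⁻¹ := by group
      _ = x r * (y 1 * p r) * (y 1)⁻¹ := by rw [h3]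
      _ = x r * (p r * y 1) * (y 1)⁻¹ := by rw [(c.yp 1 r).eq]
      _ = x r * p r := by group
  calc y 1 * (z * x r) * (y 1)⁻¹ = (y 1 * z * (y 1)⁻¹) * (y 1 * x r * (y 1)⁻¹) := by group
    _ = z * p r * (x r * p r) := by rw [h1, h2]
    _ = z * (p r * x r) * p r := by group
    _ = z * x r * (p r * p r) := by rw [(c.px r r).eq]; group
    _ = z * x r := by rw [c.p_sq, mul_one]

theorem x_mem_Mx (R : R2 D) (c : NC D f y p x) (s : F) : x s ∈ MG D (x 1) :=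
  R.EG_le_MG (c.x_D 1 one_ne_zero) ((c.x_iff _).2 ⟨s, rfl⟩)

/-- `Ŷ ≤ M_x` (three lines on `p`). -/
theorem YH.mem_Mx (R : R2 D) (c : NC D f y p x) {t : F} (ht : t ≠ 0) (ht1 : t ≠ 1)
    (ht2 : 1 + t ≠ 0) {e : G} (he : e ∈ D) (hep : Commute e (p 1)) (hey : ¬ Commute e (y 1))
    (hex : ¬ Commute e (x 1)) {k : G} (hk : YH D f y p x t k) : k ∈ MG D (x 1) := by
  obtain ⟨g, hg, hgx, hgp⟩ := c.exists_g R
  obtain ⟨f', y', p', x', c', hf', hy', hp', hx'⟩ := c.exists_shift R hg hgx hgp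
  have hMy : MG D (y' 1) = MG D (x 1) :=
    R.MG_eq_of_sim (c.x_D 1 one_ne_zero) (c'.y_D 1 one_ne_zero) hy'
  have hMp : MG D (p' 1) = MG D (p 1) :=
    R.MG_eq_of_sim (c.p_D 1 one_ne_zero) (c'.p_D 1 one_ne_zero) hp'
  rw [← hMy]
  refine Cfsg.Agent.H736.FarK.alpha R c' (by rw [hMp]; exact hk.1.M) ?_
  intro z hz1 hz2
  rw [hMy] at hz1
  rw [hMp] at hz2
  obtain ⟨r, hr⟩ := exists_corr R c hz2
  have h1 : YH D f y p x t (z * x r) := YH_of_Mx R c ht ht2 he hep hey hex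
    (mul_mem hz1 (x_mem_Mx R c r)) (mul_mem hz2 (c.x_mem_Mp R r)) hr
  have h2 := hk.comm R c ht ht1 ht2 h1
  have h3 : z = z * x r * (x r)⁻¹ := by group
  rw [h3]
  exact h2.mul_right (hk.1.cx R c r).inv_right

/-- every `k ∈ M_p ∩ C(x)` is in `M_x B` (three lines on `p`). -/
theorem decomp_x (R : R2 D) (c : NC D f y p x) {e : G} (he : e ∈ D) (hep : Commute e (p 1))
    (hey : ¬ Commute e (y 1)) (hex : ¬ Commute e (x 1)) {k : G} (hk : k ∈ MG D (p 1))
    (hkx : Commute k (x 1)) : ∃ b ∈ BG D f y p x, k * b ∈ MG D (x 1) := by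
  obtain ⟨t, ht, ht1⟩ := c.q
  have ht2 : 1 + t ≠ 0 := by
    intro h
    apply ht1
    calc t = 1 + (1 + t) := by rw [← add_assoc, c.two, zero_add]
      _ = 1 := by rw [h, add_zero]
  obtain ⟨r, hr⟩ := exists_corr R c hk
  have hY : Y0 D y p x (k * x r) :=
    ⟨mul_mem hk (c.x_mem_Mp R r), hkx.mul_left (c.xx r 1), hr⟩
  obtain ⟨b, hb, hYb⟩ := exists_YH R c ht ht2 hY
  refine ⟨b, hb, ?_⟩
  have h1 := hYb.mem_Mx R c ht ht1 ht2 he hep hey hex
  have h2 : k * b = k * x r * b * (x r)⁻¹ := by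
    rw [mul_assoc (k * x r), (c.B_x hb r).inv_right.eq]; group
  rw [h2]
  exact mul_mem h1 (inv_mem (x_mem_Mx R c r))

/-- the torus fixes all lines on `x` (three lines on `p`). -/
theorem h_line (R : R2 D) (c : NC D f y p x) {e : G} (he : e ∈ D) (hep : Commute e (p 1))
    (hey : ¬ Commute e (y 1)) (hex : ¬ Commute e (x 1)) {g : G} (hg : g ∈ D)
    (hgx : Commute g (x 1)) {s : F} (hs : s ≠ 0) :
    Commute (hN f x s * g * (hN f x s)⁻¹) g := by
  have hx := c.x_D 1 one_ne_zero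
  have hp := c.p_D 1 one_ne_zero
  have hhx : ∀ s : F, s ≠ 0 → ∀ g ∈ D, Commute g (x 1) →
      Commute (hN f x s * g * (hN f x s)⁻¹) (x 1) := by
    intro s hs g hg hgx
    have h1 : x 1 = hN f x s * x (s⁻¹ * s⁻¹) * (hN f x s)⁻¹ := by
      rw [c.h_x R hs]; congr 1; field_simp
    rw [h1]
    exact conj_commute_iff.2 (R.comm_EG hx hg hgx ((c.x_iff _).2 ⟨_, rfl⟩))
  have hhp : ∀ s : F, s ≠ 0 → ∀ g ∈ D, Commute (hN f x s * g * (hN f x s)⁻¹) (p 1) ↔
      Commute g (p 1) := by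
    intro s hs g hg
    have h1 : p 1 = hN f x s * p s⁻¹ * (hN f x s)⁻¹ := by
      rw [c.h_p hs]; congr 1; field_simp
    constructor
    · intro h
      rw [h1] at h
      exact R.comm_of hp hg ((c.p_iff _).2 ⟨_, rfl⟩) (R.ne_one (c.p_D _ (inv_ne_zero hs)))
        (conj_commute_iff.1 h)
    · intro h
      rw [h1]
      exact conj_commute_iff.2 (R.comm_EG hp hg h ((c.p_iff _).2 ⟨_, rfl⟩))
  have hns : ¬ SimR D (p 1) (x 1) := fun h => c.nsim_xp R h.symm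
  by_cases hgp : Commute g (p 1)
  · -- `g` on the line `px`
    exact R.line_trans hx (R.h.conj_mem g hg _) hp hg (hhx s hs g hg hgx) (c.px 1 1) hgx hns
      ((hhp s hs g hg).2 hgp) hgp.symm
  · obtain ⟨r, hr⟩ := c.exists_sqrt s
    have hr0 : r ≠ 0 := by
      rintro rfl
      rw [mul_zero] at hr
      exact hs hr.symm
    set H := hN f x r with hH
    have hss : hN f x s = H * H := by rw [← hr, c.h_mul hr0 hr0]
    set g₁ := H * g * H⁻¹ with hg₁
    have hg₁D : g₁ ∈ D := R.h.conj_mem g hg H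
    have hg₁x : Commute g₁ (x 1) := hhx r hr0 g hg hgx
    have hg₁p : ¬ Commute g₁ (p 1) := fun h => hgp ((hhp r hr0 g hg).1 h)
    obtain ⟨f', y', p', x', c', hf', hy', hp', hx'⟩ := c.exists_shift R hg hgx hgp
    have hy'D := c'.y_D 1 one_ne_zero
    have hp'D := c'.p_D 1 one_ne_zero
    have hf'D := c'.f_D 1 one_ne_zero
    have hMp : MG D (p' 1) = MG D (p 1) := R.MG_eq_of_sim hp hp'D hp'
    have a1 : Commute g₁ (y' 1) := R.comm_EG hx hg₁D hg₁x (R.mem_of_sim hy'D hy')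
    have a2 : ¬ Commute g₁ (p' 1) := fun h =>
      hg₁p (R.comm_of hp hg₁D (R.mem_of_sim hp'D hp') (R.ne_one hp'D) h)
    obtain ⟨k, hk, hky, hkf⟩ := trans R c' hg₁D a1 a2
    rw [hMp] at hk
    have hkx : Commute k (x 1) := by
      have h1 : x 1 ∈ EG D (y' 1) := R.mem_of_sim hx hy'.symm
      have h2 : k ∈ MG D (p' 1) := by rw [hMp]; exact hk
      exact R.comm_class hp'D hy'D (c'.yp 1 1) (c'.nsim_yp R) h2 hky h1
    obtain ⟨b, hb, hkb⟩ := decomp_x R c he hep hey hex hk hkx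
    have hbb : b * b = 1 := Z_sq R c (c.B_My hb) (c.B_Mp hb)
    have hbi : b⁻¹ = b := inv_of_sq hbb
    -- `b g₁ b⁻¹` commutes with `g`
    have hbg₁ : b * g₁ * b⁻¹ ∈ D := R.h.conj_mem g₁ hg₁D b
    have hbx : b * x 1 * b⁻¹ = x 1 := conj_eq_of_comm (c.B_x hb 1)
    have hbp : b * p 1 * b⁻¹ = p 1 := conj_eq_of_comm (c.B_p R hb 1)
    have hbg₁x : Commute (b * g₁ * b⁻¹) (x 1) := by rw [← hbx]; exact conj_commute_iff.2 hg₁x
    have hkg : Commute (k * g₁ * k⁻¹) g := by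
      have hkg₁D := R.h.conj_mem g₁ hg₁D k
      exact R.comm_EG hf'D hkg₁D hkf (R.mem_of_sim hg hf'.symm)
    have h3 : Commute (b * g₁ * b⁻¹) g := by
      obtain ⟨e', he', h4⟩ := R.MG_conj_eq hx hkb (mem_MG hbg₁ hbg₁x)
      have h5 : k * g₁ * k⁻¹ = b * g₁ * b⁻¹ * e' := by
        rw [← h4]
        calc k * g₁ * k⁻¹ = k * (1 * g₁ * 1) * k⁻¹ := by group
          _ = k * ((b * b) * g₁ * (b * b)) * k⁻¹ := by rw [hbb]
          _ = k * b * (b * g₁ * b) * b * k⁻¹ := by group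
          _ = k * b * (b * g₁ * b⁻¹) * b⁻¹ * k⁻¹ := by rw [hbi]
          _ = _ := by group
      rw [h5] at hkg
      have h6 : Commute e' g := (R.comm_EG hx hg hgx he').symm
      have h7 : b * g₁ * b⁻¹ = (b * g₁ * b⁻¹ * e') * e'⁻¹ := by group
      rw [h7]
      exact hkg.mul_left h6.inv_left
    -- `H g₁ H⁻¹` commutes with `b g₁ b⁻¹`
    have h8 : Commute g₁ (b * g * b⁻¹) := by
      have h9 : Commute (b * (b * g₁ * b⁻¹) * b⁻¹) (b * g * b⁻¹) := conj_commute_iff.2 h3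
      have h10 : b * (b * g₁ * b⁻¹) * b⁻¹ = g₁ := by
        rw [hbi]
        calc b * (b * g₁ * b) * b = (b * b) * g₁ * (b * b) := by group
          _ = g₁ := by rw [hbb, one_mul, mul_one]
      rwa [h10] at h9
    have h11 : Commute (H * g₁ * H⁻¹) (b * g₁ * b⁻¹) := by
      have h12 : Commute (H * g₁ * H⁻¹) (H * (b * g * b⁻¹) * H⁻¹) := conj_commute_iff.2 h8
      have h13 : H * (b * g * b⁻¹) * H⁻¹ = b * g₁ * b⁻¹ := by
        have h14 := (c.B_h hb r).eq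
        have h15 := (c.B_h hb r).inv_inv.eq
        calc H * (b * g * b⁻¹) * H⁻¹ = (H * b) * g * (b⁻¹ * H⁻¹) := by group
          _ = (b * H) * g * (H⁻¹ * b⁻¹) := by rw [← h14, h15]
          _ = b * g₁ * b⁻¹ := by rw [hg₁]; group
      rwa [h13] at h12
    have h16 : hN f x s * g * (hN f x s)⁻¹ = H * g₁ * H⁻¹ := by rw [hss, hg₁]; group
    rw [h16]
    have h17 : ¬ SimR D (b * g₁ * b⁻¹) (x 1) := by
      intro hs'
      apply hg₁p
      have h18 := R.mem_of_sim hbg₁ hs'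
      have h19 : Commute (p 1) (b * g₁ * b⁻¹) := R.comm_EG hx hp (c.px 1 1) h18
      rw [← hbp] at h19
      exact (conj_commute_iff.1 h19).symm
    exact R.line_trans hx (R.h.conj_mem g₁ hg₁D H) hbg₁ hg (hhx r hr0 g₁ hg₁D hg₁x) hbg₁x hgx h17
      h11 h3

end Cfsg.Agent.H737.Far
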