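import Mathlib
import Cfsg.Agent.H737.FarB

/-!
# Near points on a line, and chains fixed by an element
-/

set_option autoImplicit false

namespace Cfsg.Agent.H737.Far

open Cfsg Cfsg.Agent.H737 Cfsg.Agent.H736.Hole

variable {G : Type*} [Group G] {D : Set G} [Finite G]

/-- Opposite members have no common commuting member. -/
theorem R2.not_common (R : R2 D) {z v y : G} (hz : z ∈ D) (hv : v ∈ D) (hy : y ∈ D)
    (hzv : Opp z v) (hyz : Commute y z) : ¬ Commute y v := by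
  intro hyv
  exact WSet_not_opp (R.W hy hz hyz.symm) (R.W hy hv hyv.symm) hzv

/-- The path of a near pair. -/
theorem R2.exists_path (R : R2 D) {z v : G} (hz : z ∈ D) (hv : v ∈ D) (hn : Near D z v) :
    ∃ y ∈ D, ∃ p ∈ D, Commute z y ∧ Commute y p ∧ Commute p v ∧ ¬ Commute z p ∧ ¬ Commute y v := by
  obtain ⟨ho, y, hy, hyz, hyv⟩ := hn
  have h1 : ¬ Commute y v := R.not_common hz hv hy ho hyz
  obtain ⟨p, hp, hpy, hpv, -⟩ := R.exists_mid hy hv h1 hyv
  refine ⟨y, hy, p, hp, hyz.symm, hpy.symm, hpv, ?_, h1⟩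
  intro h2
  exact R.not_common hz hv hp ho h2.symm hpv

theorem near_cube' (R : R2 D) {z v : G} (hz : z ∈ D) (hv : v ∈ D) (hn : Near D z v) :
    ∃ z' ∈ EG D z, z' ≠ 1 ∧ z' * v * z' = v * z' * v := by
  obtain ⟨y₀, hy, p₀, hp, h1, h2, h3, h4, h5⟩ := R.exists_path hz hv hn
  obtain ⟨F, _, _, -, hF, -⟩ := R.psl z hz v hv hn
  obtain ⟨f, y, p, x, c, hf', hy', hp', hx'⟩ := exists_NC R hz hy hp hv h1 h2 h3 h4 h5 hF
  have h6 : v ∈ EG D (x 1) := R.mem_of_sim hv hx'.symm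
  obtain ⟨r, hr⟩ := (c.x_iff _).1 h6
  have hr0 : r ≠ 0 := by
    rintro rfl
    rw [c.x_zero] at hr
    exact R.ne_one hv hr
  refine ⟨f r⁻¹, ?_, R.ne_one (c.f_D _ (inv_ne_zero hr0)), ?_⟩
  · rw [← Cfsg.Agent.H736.Hole.EG_eq hf']
    exact (c.f_iff _).2 ⟨_, rfl⟩
  · have h7 := c.fx r⁻¹ (inv_ne_zero hr0)
    rw [inv_inv, ← hr] at h7
    exact h7

omit [Finite G] in
/-- the relations of `S₄`. -/
theorem braid_four {a b c : G} (haa : a * a = 1) (hbb : b * b = 1) (hcc : c * c = 1)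
    (hab : a * b = b * a) (h1 : a * c * a = c * a * c) (h2 : b * c * b = c * b * c) :
    (a * b * c) ^ 4 = 1 := by
  have e1 : a * b * c * (a * b * c) = c * (a * b) * c * (a * b) := by
    calc a * b * c * (a * b * c) = a * b * c * ((a * b) * c) := by group
      _ = a * b * c * ((b * a) * c) := by rw [hab]
      _ = a * (b * c * b) * a * c := by group
      _ = a * (c * b * c) * a * c := by rw [h2]
      _ = a * c * b * (c * a * c) := by group
      _ = a * c * b * (a * c * a) := by rw [h1]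
      _ = a * c * (b * a) * c * a := by group
      _ = a * c * (a * b) * c * a := by rw [hab]
      _ = (a * c * a) * b * c * a := by group
      _ = (c * a * c) * b * c * a := by rw [h1]
      _ = c * a * (c * b * c) * a := by group
      _ = c * a * (b * c * b) * a := by rw [h2]
      _ = c * (a * b) * c * (b * a) := by group
      _ = c * (a * b) * c * (a * b) := by rw [hab]
  have hgg : a * b * (a * b) = 1 := by
    calc a * b * (a * b) = a * (b * a) * b := by group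
      _ = a * (a * b) * b := by rw [hab]
      _ = (a * a) * (b * b) := by group
      _ = 1 := by rw [haa, hbb, one_mul]
  calc (a * b * c) ^ 4 = (a * b * c * (a * b * c)) * (a * b * c * (a * b * c)) := by
        rw [show (4 : ℕ) = 2 + 2 from rfl, pow_add, pow_two]
    _ = (a * b * c * (a * b * c)) * (c * (a * b) * c * (a * b)) := by rw [← e1]
    _ = a * b * c * (a * b) * (c * c) * (a * b) * c * (a * b) := by group
    _ = a * b * c * ((a * b) * (a * b)) * c * (a * b) := by rw [hcc]; group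
    _ = a * b * (c * c) * (a * b) := by rw [hgg]; group
    _ = 1 := by rw [hcc, mul_one, hgg]

theorem G1' (R : R2 D) {w z₁ z₂ : G} (hw : w ∈ D) (h1 : z₁ ∈ D) (h2 : z₂ ∈ D)
    (h12 : Commute z₁ z₂) (ho : Opp (z₁ * z₂) w) (c1 : z₁ * w * z₁ = w * z₁ * w)
    (c2 : z₂ * w * z₂ = w * z₂ * w) : False := by
  have h4 := braid_four (R.sq h1) (R.sq h2) (R.sq hw) h12.eq c1 c2
  have h5 : orderOf (z₁ * z₂ * w) ∣ 2 ^ 2 := orderOf_dvd_of_pow_eq_one h4
  have h6 : orderOf (z₁ * z₂ * w) = 1 := by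
    have h7 : Nat.Coprime (orderOf (z₁ * z₂ * w)) (2 ^ 2) :=
      Nat.Coprime.pow_right 2 (Nat.coprime_two_right.2 ho.2)
    exact Nat.Coprime.eq_one_of_dvd h7 h5
  have h8 := orderOf_eq_one_iff.1 h6
  apply ho.1
  calc z₁ * z₂ = z₁ * z₂ * w * w := by rw [mul_assoc (z₁ * z₂), R.sq hw, mul_one]
    _ = w := by rw [h8, one_mul]

/-- On a line opposite to `v` there is at most one point near `v`. -/
theorem near_unique (R : R2 D) {v z₁ z₂ : G} (hv : v ∈ D) (h1 : z₁ ∈ D) (h2 : z₂ ∈ D)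
    (h12 : Commute z₁ z₂) (hn1 : Near D z₁ v) (hn2 : Near D z₂ v)
    (hl : ∀ s ∈ LS D z₁ z₂, s ≠ 1 → Opp s v) : SimR D z₂ z₁ := by
  by_contra hs
  obtain ⟨a, ha, ha1, hac⟩ := near_cube' R h1 hv hn1
  obtain ⟨b, hb, hb1, hbc⟩ := near_cube' R h2 hv hn2
  have haD := R.mem_D h1 ha ha1
  have hbD := R.mem_D h2 hb hb1
  have hab : Commute a b := by
    have h3 : Commute a z₂ := (R.comm_EG h1 h2 h12.symm ha).symm
    exact R.comm_EG h2 haD h3 hb
  have hne : a ≠ b := by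
    rintro rfl
    exact ha1 (R.EG_inter h2 h1 hs hb ha)
  have hab1 : a * b ≠ 1 := by
    intro h
    apply hne
    calc a = a * b * b⁻¹ := by group
      _ = b := by rw [h, one_mul, R.inv hbD]
  exact G1' R hv haD hbD hab
    (hl _ (mul_mem (Subgroup.mem_sup_left ha) (Subgroup.mem_sup_right hb)) hab1) hac hbc

/-- If some point has three lines, then every point has a third line. -/
theorem R2.third_line (R : R2 D) {a u v w a' u' v' : G} (ha : a ∈ D) (hu : u ∈ D) (hv : v ∈ D)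
    (hw : w ∈ D) (hua : Commute u a) (hva : Commute v a) (hwa : Commute w a)
    (huv : ¬ Commute u v) (huw : ¬ Commute u w) (hvw : ¬ Commute v w)
    (ha' : a' ∈ D) (hu' : u' ∈ D) (hv' : v' ∈ D) (hua' : Commute u' a') (hva' : Commute v' a')
    (huv' : ¬ Commute u' v') :
    ∃ e ∈ D, Commute e a' ∧ ¬ Commute e u' ∧ ¬ Commute e v' := by
  obtain ⟨k, hk⟩ := exists_conj_of_connected R.h R.hc ha ha'
  have tr : ∀ g ∈ D, Commute g a → k * g * k⁻¹ ∈ D ∧ Commute (k * g * k⁻¹) a' := by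
    intro g hg hga
    exact ⟨R.h.conj_mem g hg k, by rw [← hk]; exact conj_commute_iff.2 hga⟩
  have nu : ¬ SimR D u' a' := fun h =>
    huv' (R.comm_EG ha' hv' hva' (R.mem_of_sim hu' h)).symm
  have nv : ¬ SimR D v' a' := fun h =>
    huv' (R.comm_EG ha' hu' hua' (R.mem_of_sim hv' h))
  obtain ⟨hu1, hu2⟩ := tr u hu hua
  obtain ⟨hv1, hv2⟩ := tr v hv hva
  obtain ⟨hw1, hw2⟩ := tr w hw hwa
  have key : ∀ t ∈ D, Commute t a' → ¬ SimR D t a' → ∀ g₁ ∈ D, ∀ g₂ ∈ D, Commute g₁ a →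
      Commute g₂ a → ¬ Commute g₁ g₂ → Commute (k * g₁ * k⁻¹) t → ¬ Commute (k * g₂ * k⁻¹) t := by
    intro t ht hta hts g₁ hg₁ g₂ hg₂ hga₁ hga₂ hn h1 h2
    exact hn (conj_commute_iff.1 (R.line_trans ha' (tr g₁ hg₁ hga₁).1 ht (tr g₂ hg₂ hga₂).1
      (tr g₁ hg₁ hga₁).2 hta (tr g₂ hg₂ hga₂).2 hts h1 h2.symm))
  have kU := key u' hu' hua' nu
  have kV := key v' hv' hva' nv
  by_cases c1 : Commute (k * u * k⁻¹) u'
  · have c2 := kU u hu v hv hua hva huv c1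
    have c3 := kU u hu w hw hua hwa huw c1
    by_cases c4 : Commute (k * v * k⁻¹) v'
    · exact ⟨_, hw1, hw2, c3, kV v hv w hw hva hwa hvw c4⟩
    · exact ⟨_, hv1, hv2, c2, c4⟩
  · by_cases c2 : Commute (k * u * k⁻¹) v'
    · have c3 := kV u hu v hv hua hva huv c2
      have c4 := kV u hu w hw hua hwa huw c2
      by_cases c5 : Commute (k * v * k⁻¹) u'
      · exact ⟨_, hw1, hw2, kU v hv w hw hva hwa hvw c5, c4⟩
      · exact ⟨_, hv1, hv2, c5, c3⟩
    · exact ⟨_, hu1, hu2, c1, c2⟩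

/-- The elements of a line of `d` are opposite to everything far from `d`. -/
theorem R2.LS_comm_of (R : R2 D) {a b d s : G} (ha : a ∈ D) (hb : b ∈ D) (hd : d ∈ D)
    (hab : Commute b a) (hns : ¬ SimR D b a)
    (hda : Commute d a) (hdb : Commute d b) (hs : s ∈ LS D a b) : Commute d s := by
  obtain ⟨u, hu, v, hv, rfl⟩ := (R.N.mem_LS (R.col ha hb hab hns)).1 hs
  exact (R.comm_EG ha hd hda hu).mul_right (R.comm_EG hb hd hdb hv)

/-- step (9) -/
theorem fix_chain (R : R2 D) {d f₀ y₀ p₀ x₀ w σ : G} (hd : d ∈ D) (hf : f₀ ∈ D) (hy : y₀ ∈ D)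
    (hp : p₀ ∈ D) (hx : x₀ ∈ D) (hw : w ∈ D) (hdf : Commute d f₀) (hfy : Commute f₀ y₀)
    (hyp : Commute y₀ p₀) (hpx : Commute p₀ x₀) (hdy : ¬ Commute d y₀) (hfp : ¬ Commute f₀ p₀)
    (hyx : ¬ Commute y₀ x₀) (hfar : ∀ z ∈ D, Commute z d → Opp z x₀) (hwd : w * d * w ∈ EG D x₀)
    (hσd : σ * d * σ⁻¹ ∈ EG D d) (hσx : σ * x₀ * σ⁻¹ ∈ EG D x₀)
    (hσl : ∀ g ∈ D, Commute g d → Commute (σ * g * σ⁻¹) g) :
    σ * (w * f₀ * w) * σ⁻¹ ∈ EG D (w * f₀ * w) := by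
  have hww := R.sq hw
  have hwi := R.inv hw
  have cw : ∀ g ∈ D, w * g * w ∈ D := fun g hg => by
    have := R.h.conj_mem g hg w
    rwa [hwi] at this
  have cc : ∀ {a b : G}, Commute (w * a * w) (w * b * w) ↔ Commute a b := by
    intro a b
    have := @conj_commute_iff G _ w a b
    rwa [hwi] at this
  have hwdD := cw d hd
  have hwxD := cw x₀ hx
  have hwd1 := R.ne_one hwdD
  have hwx : w * x₀ * w ∈ EG D d := by
    have h1 := R.EG_conj hwd w
    rw [hwi, cj_cj hww] at h1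
    rw [R.EG_eq hwxD h1 (R.ne_one hd)]
    exact R.self_mem hwxD
  have hwx1 := R.ne_one hwxD
  set p₁ := w * p₀ * w with hp₁
  set y₁ := w * y₀ * w with hy₁
  set f₁ := w * f₀ * w with hf₁
  have hp₁D := cw p₀ hp
  have hy₁D := cw y₀ hy
  have hf₁D := cw f₀ hf
  rw [← hp₁] at hp₁D
  rw [← hy₁] at hy₁D
  rw [← hf₁] at hf₁D
  have a1 : Commute p₁ d := R.comm_of hd hp₁D hwx hwx1 (cc.2 hpx)
  have a2 : Commute p₁ y₁ := cc.2 hyp.symm
  have a3 : Commute y₁ f₁ := cc.2 hfy.symm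
  have a4 : Commute f₁ x₀ := R.comm_of hx hf₁D hwd hwd1 (cc.2 hdf.symm)
  have a5 : ¬ Commute y₁ x₀ := fun h =>
    hdy (cc.1 (R.comm_EG hx hy₁D h hwd)).symm
  have a6 : ¬ Commute p₁ f₁ := fun h => hfp (cc.1 h).symm
  have a7 : ¬ Commute y₁ d := fun h => hyx (cc.1 (R.comm_EG hd hy₁D h hwx))
  have hop : Opp p₁ x₀ := hfar p₁ hp₁D a1
  have hny : ¬ Opp y₁ x₀ := WSet_not_opp (R.W hf₁D hy₁D a3) (R.W hf₁D hx a4.symm)
  -- conjugation by `σ`
  have sD : ∀ g ∈ D, σ * g * σ⁻¹ ∈ D := fun g hg => R.h.conj_mem g hg σ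
  have sd1 := R.ne_one (sD d hd)
  have sx1 := R.ne_one (sD x₀ hx)
  have sd : ∀ g ∈ D, Commute (σ * g * σ⁻¹) d ↔ Commute g d := by
    intro g hg
    constructor
    · intro h; exact conj_commute_iff.1 (R.comm_EG hd (sD g hg) h hσd)
    · intro h; exact R.comm_of hd (sD g hg) hσd sd1 (conj_commute_iff.2 h)
  have sx : ∀ g ∈ D, Commute (σ * g * σ⁻¹) x₀ ↔ Commute g x₀ := by
    intro g hg
    constructor
    · intro h; exact conj_commute_iff.1 (R.comm_EG hx (sD g hg) h hσx)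
    · intro h; exact R.comm_of hx (sD g hg) hσx sx1 (conj_commute_iff.2 h)
  have sox : ∀ g ∈ D, Opp (σ * g * σ⁻¹) x₀ ↔ Opp g x₀ := by
    intro g hg
    rw [← R.opp_iff hx (sD g hg) hσx sx1, opp_conj]
  set p₂ := σ * p₁ * σ⁻¹ with hp₂
  set z := σ * y₁ * σ⁻¹ with hz
  have hp₂D : p₂ ∈ D := sD p₁ hp₁D
  have hzD : z ∈ D := sD y₁ hy₁D
  have b1 : Commute p₂ d := (sd p₁ hp₁D).2 a1
  have b2 : Commute p₂ p₁ := hσl p₁ hp₁D a1
  have b3 : Commute z p₂ := conj_commute_iff.2 a2.symm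
  have b4 : ¬ Opp z x₀ := fun h => hny ((sox y₁ hy₁D).1 h)
  have b5 : ¬ Commute z d := fun h => a7 ((sd y₁ hy₁D).1 h)
  have hsim : SimR D p₂ p₁ := by
    by_contra hns
    apply hns
    refine near_unique R hx hp₁D hp₂D b2.symm ⟨hop, y₁, hy₁D, a2.symm, hny⟩
      ⟨hfar p₂ hp₂D b1, z, hzD, b3, b4⟩ ?_
    intro s hs hs1
    have hsD := R.N.LS_mem (R.col hp₁D hp₂D b2 hns) hs hs1
    exact hfar s hsD (R.LS_comm_of hp₁D hp₂D hd b2 hns a1.symm b1.symm hs).symm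
  have b6 : Commute z p₁ := R.comm_EG hp₂D hzD b3 (R.mem_of_sim hp₁D hsim.symm)
  -- `z` and `y₁` are on one line through `p₁`
  have hzy : Commute z y₁ := by
    by_contra hzy
    obtain ⟨F, _, _, -, hF, -⟩ := R.psl p₁ hp₁D x₀ hx ⟨hop, y₁, hy₁D, a2.symm, hny⟩
    obtain ⟨f, y, p, x, c, hf', hy', hp', hx'⟩ :=
      exists_NC R hp₁D hy₁D hf₁D hx a2 a3 a4 a6 a5 hF
    have hFd : Fintype.card F = Nat.card (EG D d) := by rw [hF, R.N.card_EG hp₁D hd]
    obtain ⟨f', y', p', x', c', hf'', hy'', hp'', hx''⟩ :=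
      exists_NC (F := F) R hd hp₁D hy₁D hf₁D a1.symm a2 a3 (fun h => a7 h.symm) a6 hFd
    -- a third line on `y₁`
    obtain ⟨e, he, hey, hep, hef⟩ := R.third_line hp₁D hy₁D hzD hd a2.symm b6 a1.symm
      (fun h => hzy h.symm) a7 b5 hy₁D hp₁D hf₁D a2 a3.symm a6
    have hfD := c.f_D 1 one_ne_zero
    have hyD := c.y_D 1 one_ne_zero
    have hpD := c.p_D 1 one_ne_zero
    have hxD := c.x_D 1 one_ne_zero
    have hf'D := c'.f_D 1 one_ne_zero
    have hy'D := c'.y_D 1 one_ne_zero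
    have hp'D := c'.p_D 1 one_ne_zero
    have e1 : Commute e (y 1) := R.comm_EG hy₁D he hey (R.mem_of_sim hyD hy')
    have e2 : ¬ Commute e (p 1) := fun h =>
      hef (R.comm_EG hpD he h (R.mem_of_sim hf₁D hp'.symm))
    have e3 : ¬ Commute e (f 1) := fun h =>
      hep (R.comm_EG hfD he h (R.mem_of_sim hp₁D hf'.symm))
    -- move the line of `z` to the line of `d`
    have t1 : Commute z (y' 1) := R.comm_EG hp₁D hzD b6 (R.mem_of_sim hy'D hy'')
    have t2 : ¬ Commute z (p' 1) := fun h =>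
      hzy (R.comm_EG hp'D hzD h (R.mem_of_sim hy₁D hp''.symm))
    obtain ⟨k, hk, hky, hkf⟩ := trans R c' hzD t1 t2
    have hMp' : MG D (p' 1) = MG D (y 1) := by
      rw [R.MG_eq_of_sim hy₁D hp'D hp'', R.MG_eq_of_sim hy₁D hyD hy']
    have hkp₁ : ∀ s ∈ EG D p₁, Commute k s := by
      intro s hs
      rw [← Cfsg.Agent.H736.Hole.EG_eq hy''] at hs
      exact R.comm_class hp'D hy'D (c'.yp 1 1) (c'.nsim_yp R) hk hky hs
    rw [hMp'] at hk
    have hkf1 : Commute k (f 1) := hkp₁ _ (R.mem_of_sim hfD hf')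
    obtain ⟨b, hb, hkb⟩ := decomp_x R c.swap he e1 e2 e3 hk hkf1
    have hbB := c.B_swap.1 hb
    have hbb : b * b = 1 := Z_sq R c (c.B_My hbB) (c.B_Mp hbB)
    have hbi : b⁻¹ = b := inv_of_sq hbb
    have hbp₁ : Commute b p₁ := by
      have h1 : p₁ ∈ EG D (f 1) := R.mem_of_sim hp₁D hf'.symm
      obtain ⟨r, hr⟩ := (c.f_iff _).1 h1
      rw [hr]; exact c.B_f hbB r
    have hbx₀ : Commute b x₀ := by
      have h1 : x₀ ∈ EG D (x 1) := R.mem_of_sim hx hx'.symm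
      obtain ⟨r, hr⟩ := (c.x_iff _).1 h1
      rw [hr]; exact c.B_x hbB r
    have hbz : b * z * b⁻¹ ∈ D := R.h.conj_mem z hzD b
    have hbzp : Commute (b * z * b⁻¹) p₁ := by
      have h1 : p₁ = b * p₁ * b⁻¹ := (conj_eq_of_comm hbp₁).symm
      rw [h1]; exact conj_commute_iff.2 b6
    have hMf : MG D (f 1) = MG D p₁ := R.MG_eq_of_sim hp₁D hfD hf'
    rw [hMf] at hkb
    obtain ⟨e', he', h4⟩ := R.MG_conj_eq hp₁D hkb (mem_MG hbz hbzp)
    have h5 : k * z * k⁻¹ = b * z * b⁻¹ * e' := by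
      rw [← h4]
      calc k * z * k⁻¹ = k * (1 * z * 1) * k⁻¹ := by group
        _ = k * ((b * b) * z * (b * b)) * k⁻¹ := by rw [hbb]
        _ = k * b * (b * z * b) * b * k⁻¹ := by group
        _ = k * b * (b * z * b⁻¹) * b⁻¹ * k⁻¹ := by rw [hbi]
        _ = _ := by group
    have h6 : Commute (k * z * k⁻¹) d := by
      have hkz := R.h.conj_mem z hzD k
      exact R.comm_EG hf'D hkz hkf (R.mem_of_sim hd hf''.symm)
    rw [h5] at h6
    have h7 : Commute e' d := (R.comm_EG hp₁D hd a1.symm he').symm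
    have h8 : Commute (b * z * b⁻¹) d := by
      have h9 : b * z * b⁻¹ = (b * z * b⁻¹ * e') * e'⁻¹ := by group
      rw [h9]; exact h6.mul_left h7.inv_left
    have h10 := hfar _ hbz h8
    rw [← conj_eq_of_comm hbx₀, opp_conj] at h10
    exact b4 h10
  -- `z ∈ E(y₁)`
  have hzs : SimR D z y₁ := by
    by_contra hns
    have h1 := R.line y₁ hy₁D z hzD p₁ hp₁D hzy hns a2 b6.symm
    have hcol := R.col hy₁D hzD hzy hns
    obtain ⟨s, hs, t, ht, hst⟩ := (R.N.mem_LS hcol).1 h1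
    have hs1 : s ≠ 1 := by
      rintro rfl
      rw [one_mul] at hst
      apply b4
      refine (R.opp_iff' hzD hx (s := p₁) ?_ (R.ne_one hp₁D)).1 hop
      rw [hst]; exact ht
    have ht1 : t ≠ 1 := by
      rintro rfl
      rw [mul_one] at hst
      apply hny
      refine (R.opp_iff' hy₁D hx (s := p₁) ?_ (R.ne_one hp₁D)).1 hop
      rw [hst]; exact hs
    have hsD := R.mem_D hy₁D hs hs1
    have htD := R.mem_D hzD ht ht1
    have hstc : Commute s t := R.N.LS_comm hcol (Subgroup.mem_sup_left hs) (Subgroup.mem_sup_right ht)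
    have h4 : Commute t p₁ := by rw [hst]; exact hstc.symm.mul_right (Commute.refl t)
    have h2 : t * p₁ = s := by rw [h4.eq, hst, mul_assoc, R.sq htD, mul_one]
    have h3 : Opp x₀ p₁ := R.opp_symm hp₁D hx hop
    rcases opp_or_opp_of_line R.h htD hp₁D h4 (by rw [h2]; exact hsD) hx h3 with h5 | h5
    · exact b4 (R.opp_symm hx hzD ((R.opp_iff hzD hx ht ht1).1 h5))
    · rw [h2] at h5
      exact hny (R.opp_symm hx hy₁D ((R.opp_iff hy₁D hx hs hs1).1 h5))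
  -- the common neighbour
  set q₂ := σ * f₁ * σ⁻¹ with hq₂
  have hq₂D : q₂ ∈ D := sD f₁ hf₁D
  have g1 : Commute q₂ z := conj_commute_iff.2 a3.symm
  have g2 : Commute q₂ y₁ := R.comm_EG hzD hq₂D g1 (R.mem_of_sim hy₁D hzs.symm)
  have g3 : Commute q₂ x₀ := (sx f₁ hf₁D).2 a4
  have g4 : y₁ * x₀ * y₁⁻¹ * x₀⁻¹ ∈ EG D q₂ :=
    R.comm_MG hq₂D (mem_MG hy₁D g2.symm) (mem_MG hx g3.symm)
  have g5 : y₁ * x₀ * y₁⁻¹ * x₀⁻¹ ∈ EG D f₁ :=
    R.comm_MG hf₁D (mem_MG hy₁D a3) (mem_MG hx a4.symm)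
  have g6 : y₁ * x₀ * y₁⁻¹ * x₀⁻¹ ≠ 1 := by
    intro h
    apply a5
    show y₁ * x₀ = x₀ * y₁
    calc y₁ * x₀ = (y₁ * x₀ * y₁⁻¹ * x₀⁻¹) * (x₀ * y₁) := by group
      _ = x₀ * y₁ := by rw [h, one_mul]
  exact R.mem_of_sim hq₂D ((R.sim hq₂D g4 g6).symm.trans (R.sim hf₁D g5 g6))

end Cfsg.Agent.H737.Far
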